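import Mathlib

/-!
# Rational representations of degree twenty-three: linear algebra
-/

set_option autoImplicit false

namespace Cfsg.Agent.H2.F23

open Module Polynomial

variable {V : Type*} [AddCommGroup V] [Module ℚ V]

theorem aeval_mem (X : Module.End ℚ V) (W : Submodule ℚ V) (inv : ∀ y ∈ W, X y ∈ W) (p : ℚ[X])
    {y : V} (hy : y ∈ W) : aeval X p y ∈ W := by
  induction p using Polynomial.induction_on' with
  | add p q hp hq => rw [map_add, LinearMap.add_apply]; exact W.add_mem hp hq
  | monomial n c =>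
    rw [aeval_monomial, Module.End.mul_apply, Module.algebraMap_end_apply]
    refine W.smul_mem c ?_
    induction n with
    | zero => simpa using hy
    | succ n ih => rw [pow_succ', Module.End.mul_apply]; exact inv _ ih

variable [FiniteDimensional ℚ V]

theorem deg_le (X : Module.End ℚ V) {q : ℚ[X]} (hq : Irreducible q) (W : Submodule ℚ V)
    (inv : ∀ y ∈ W, X y ∈ W) {y : V} (hy : y ∈ W) (y0 : y ≠ 0) (h0 : aeval X q y = 0) :
    q.natDegree ≤ finrank ℚ W := by
  let f : degreeLT ℚ q.natDegree →ₗ[ℚ] W :=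
    { toFun := fun p => ⟨aeval X (p : ℚ[X]) y, aeval_mem X W inv p hy⟩
      map_add' := fun p r => Subtype.ext (by simp)
      map_smul' := fun c p => Subtype.ext (by simp) }
  have hf : Function.Injective f := (injective_iff_map_eq_zero f).mpr fun p hp => by
    by_contra p0
    have p1 : (p : ℚ[X]) ≠ 0 := fun h => p0 (Subtype.ext h)
    have hp' : aeval X (p : ℚ[X]) y = 0 := congrArg Subtype.val hp
    have nd : ¬ q ∣ p := fun h => by
      have h1 := degree_le_of_dvd h p1
      have h2 := mem_degreeLT.mp p.2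
      rw [degree_eq_natDegree hq.ne_zero] at h1
      exact absurd h2 (not_lt.mpr h1)
    obtain ⟨a, b, e⟩ := (hq.coprime_iff_not_dvd).mpr nd
    have := congrArg (fun r => aeval X r y) e
    simp only [map_add, map_mul, LinearMap.add_apply, Module.End.mul_apply, h0, hp', map_zero,
      add_zero, map_one, Module.End.one_apply] at this
    exact y0 this.symm
  have := LinearMap.finrank_le_finrank_of_injective hf
  rwa [(degreeLTEquiv ℚ q.natDegree).finrank_eq, finrank_fin_fun] at this

theorem tot_le (X : Module.End ℚ V) {p k : ℕ} (hp : p.Prime) (h1 : X ^ p ^ (k + 1) = 1)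
    (h2 : X ^ p ^ k ≠ 1) : p ^ k * (p - 1) ≤ finrank ℚ V := by
  have := Fact.mk hp
  obtain ⟨w, hw⟩ : ∃ w, (X ^ p ^ k - 1) w ≠ 0 := by
    by_contra h
    push Not at h
    exact h2 (sub_eq_zero.mp (LinearMap.ext h))
  have := deg_le X (cyclotomic.irreducible_rat (n := p ^ (k + 1)) (pow_pos hp.pos _)) ⊤
    (fun _ _ => trivial) trivial hw (by
      have e := congrArg (aeval X) (cyclotomic_prime_pow_mul_X_pow_sub_one ℚ p k)
      simp only [map_mul, map_sub, map_pow, aeval_X, map_one, h1, sub_self] at e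
      rw [← Module.End.mul_apply, e, LinearMap.zero_apply])
  rwa [natDegree_cyclotomic, Nat.totient_prime_pow_succ hp, finrank_top] at this

theorem dim_ge (X : Module.End ℚ V) (W : Submodule ℚ V) (inv : ∀ y ∈ W, X y ∈ W) {y : V}
    (hy : y ∈ W) (y0 : y ≠ 0) (h0 : ∑ i ∈ Finset.range 23, (X ^ i) y = 0) :
    22 ≤ finrank ℚ W := by
  have : Fact (Nat.Prime 23) := ⟨by norm_num⟩
  have := deg_le X (cyclotomic.irreducible_rat (n := 23) (by norm_num)) W inv hy y0 (by
    rw [cyclotomic_prime]
    simpa using h0)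
  rwa [natDegree_cyclotomic, Nat.totient_prime (by norm_num)] at this

theorem alt_deg (hd : Odd (finrank ℚ V)) (A : LinearMap.BilinForm ℚ V)
    (h : ∀ a b, A a b = -A b a) : ∃ y, y ≠ 0 ∧ ∀ z, A y z = 0 := by
  classical
  let b := Module.finBasis ℚ V
  have e : (LinearMap.BilinForm.toMatrix b A).transpose = -LinearMap.BilinForm.toMatrix b A := by
    ext i j
    simp only [Matrix.transpose_apply, LinearMap.BilinForm.toMatrix_apply, Matrix.neg_apply]
    exact h _ _
  have e2 := congrArg Matrix.det e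
  rw [Matrix.det_transpose, Matrix.det_neg, Fintype.card_fin, hd.neg_one_pow] at e2
  have e3 : (LinearMap.BilinForm.toMatrix b A).det = 0 := by linarith
  by_contra hc
  push Not at hc
  have l : ∀ y, (∀ z, A y z = 0) → y = 0 := fun y hy => by
    by_contra y0
    obtain ⟨z, hz⟩ := hc y y0
    exact hz (hy z)
  exact (LinearMap.BilinForm.nondegenerate_iff_det_ne_zero b).mp
    ⟨l, fun y hy => l y fun z => by rw [h, hy, neg_zero]⟩ e3

variable {G : Type*} [Group G]

/-- An irreducible faithful representation of degree `23` with an invariant form. -/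
structure Rep (ρ : Representation ℚ G V) (B : LinearMap.BilinForm ℚ V) : Prop where
  dim : finrank ℚ V = 23
  inj : ∀ g, ρ g = 1 → g = 1
  irr : ∀ W : Submodule ℚ V, (∀ g, ∀ y ∈ W, ρ g y ∈ W) → W = ⊥ ∨ W = ⊤
  symm : ∀ a b, B a b = B b a
  pos : ∀ a, a ≠ 0 → 0 < B a a
  inv : ∀ g a b, B (ρ g a) (ρ g b) = B a b

namespace Rep

variable {ρ : Representation ℚ G V} {B : LinearMap.BilinForm ℚ V} (h : Rep ρ B)
include h

omit [FiniteDimensional ℚ V] in
theorem nonneg (a : V) : 0 ≤ B a a := by
  by_cases e : a = 0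
  · simp [e]
  · exact (h.pos a e).le

omit [FiniteDimensional ℚ V] in
theorem eq_zero {a : V} (e : B a a = 0) : a = 0 := by
  by_contra h0
  exact (h.pos a h0).ne' e

omit [FiniteDimensional ℚ V] in
theorem adj (g : G) (a b : V) : B (ρ g a) b = B a (ρ g⁻¹ b) := by
  rw [← h.inv g a, ← Module.End.mul_apply, ← map_mul, mul_inv_cancel, map_one,
    Module.End.one_apply]

omit [FiniteDimensional ℚ V] in
theorem smul {c : ℚ} (hc : 0 < c) : Rep ρ (c • B) :=
  ⟨h.dim, h.inj, h.irr, fun a b => by simp [h.symm a b], fun a ha => by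
    simpa using mul_pos hc (h.pos a ha), fun g a b => by simp [h.inv]⟩

omit [FiniteDimensional ℚ V] in
theorem nondeg : B.Nondegenerate :=
  ⟨fun y hy => h.eq_zero (hy y), fun y hy => h.eq_zero (hy y)⟩

omit [FiniteDimensional ℚ V] in
theorem no_line {a : V} (a0 : a ≠ 0) : ∃ g, ∀ c : ℚ, ρ g a ≠ c • a := by
  by_contra hc
  push Not at hc
  rcases h.irr (Submodule.span ℚ {a}) (fun g y hy => by
    obtain ⟨c, rfl⟩ := Submodule.mem_span_singleton.mp hy
    obtain ⟨e, he⟩ := hc g
    rw [map_smul, he, smul_smul]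
    exact Submodule.smul_mem _ _ (Submodule.mem_span_singleton_self a)) with e | e
  · exact a0 (Submodule.span_singleton_eq_bot.mp e)
  · have := finrank_span_singleton (K := ℚ) a0
    rw [e, finrank_top, h.dim] at this
    omega

theorem self_adj {T : Module.End ℚ V} (hT : ∀ g, T * ρ g = ρ g * T) (a b : V) :
    B (T a) b = B a (T b) := by
  let A : LinearMap.BilinForm ℚ V := B.compLeft T - B.compRight T
  have hA : ∀ a b, A a b = B (T a) b - B a (T b) := fun a b => rfl
  obtain ⟨y, y0, hy⟩ := alt_deg (by rw [h.dim]; decide) A fun a b => by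
    rw [hA, hA, h.symm (T a), h.symm a]
    ring
  rcases h.irr (LinearMap.ker A) (fun g z hz => by
    rw [LinearMap.mem_ker] at hz ⊢
    ext w
    have := LinearMap.congr_fun hz (ρ g⁻¹ w)
    rw [hA, LinearMap.zero_apply] at this ⊢
    rw [← Module.End.mul_apply, hT, Module.End.mul_apply, h.adj, h.adj,
      ← Module.End.mul_apply (ρ g⁻¹), ← hT, Module.End.mul_apply, this]) with e | e
  · exact absurd ((Submodule.eq_bot_iff _).mp e y (LinearMap.mem_ker.mpr (LinearMap.ext hy))) y0
  · have : a ∈ LinearMap.ker A := e ▸ trivial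
    have := LinearMap.congr_fun (LinearMap.mem_ker.mp this) b
    rwa [hA, LinearMap.zero_apply, sub_eq_zero] at this

omit [FiniteDimensional ℚ V] in
theorem ext' {a b : V} (e : ∀ z, B a z = B b z) : a = b :=
  sub_eq_zero.mp (h.eq_zero (by rw [map_sub B, LinearMap.sub_apply, e, sub_self]))

omit [FiniteDimensional ℚ V] in
theorem inj_of_comm {T : Module.End ℚ V} (hT : ∀ g, T * ρ g = ρ g * T) (T0 : T ≠ 0) :
    Function.Injective T := by
  rcases h.irr (LinearMap.ker T) (fun g z hz => by
    rw [LinearMap.mem_ker] at hz ⊢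
    rw [← Module.End.mul_apply, hT, Module.End.mul_apply, hz, map_zero]) with e | e
  · exact LinearMap.ker_eq_bot.mp e
  · exact absurd (LinearMap.ker_eq_top.mp e) T0

theorem schur {T : Module.End ℚ V} (hT : ∀ g, T * ρ g = ρ g * T) : ∃ c : ℚ, T = c • 1 := by
  let E := Subalgebra.centralizer ℚ (Set.range ρ)
  have mE : ∀ S, S ∈ E ↔ ∀ g, S * ρ g = ρ g * S := fun S => by
    simp only [E, Subalgebra.mem_centralizer_iff, Set.forall_mem_range]
    exact forall_congr' fun g => eq_comm
  have nt : Nontrivial V := Module.nontrivial_of_finrank_pos (R := ℚ) (by rw [h.dim]; norm_num)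
  have hE : IsField E :=
    { exists_pair_ne := ⟨0, 1, zero_ne_one⟩
      mul_comm := fun S R => Subtype.ext (LinearMap.ext fun a => h.ext' fun b => by
        have e1 := h.self_adj ((mE _).mp (S * R).2) a b
        have e2 := h.self_adj ((mE _).mp R.2) (S.1 a) b
        have e3 := h.self_adj ((mE _).mp S.2) a (R.1 b)
        exact e1.trans (e3.symm.trans e2.symm))
      mul_inv_cancel := fun {S} S0 => by
        have hi := h.inj_of_comm ((mE _).mp S.2) fun e => S0 (Subtype.ext e)
        obtain ⟨u, hu⟩ := (Module.End.isUnit_iff S.1).mpr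
          ⟨hi, LinearMap.injective_iff_surjective.mp hi⟩
        refine ⟨⟨↑u⁻¹, (mE _).mpr fun g => ?_⟩, Subtype.ext (by simp [← hu])⟩
        have := (mE _).mp S.2 g
        rw [← hu] at this
        exact (Commute.units_inv_left this).eq }
  let _ := hE.toField
  have e := Module.finrank_mul_finrank ℚ E V
  rw [h.dim] at e
  rcases (Nat.dvd_prime (by norm_num : Nat.Prime 23)).mp (Dvd.intro _ e) with e1 | e1
  · have := Subalgebra.eq_bot_of_finrank_one e1
    obtain ⟨c, hc⟩ := Algebra.mem_bot.mp (this ▸ (mE T).mpr hT)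
    exact ⟨c, by rw [← hc, Algebra.algebraMap_eq_smul_one]⟩
  · exfalso
    rw [e1] at e
    obtain ⟨a, a0⟩ := exists_ne (0 : V)
    have e2 := (finrank_eq_one_iff_of_nonzero' (K := E) a a0).mp (by omega)
    obtain ⟨g, hg⟩ := h.no_line a0
    have k : ∀ g, ρ g ∈ E := fun g => by
      obtain ⟨S, hS⟩ := e2 (ρ g a)
      have : ρ g = S := LinearMap.ext fun b => by
        obtain ⟨R, rfl⟩ := e2 b
        have e3 : R.1 (S.1 a) = S.1 (R.1 a) := congrArg (fun U : E => U.1 a) (hE.mul_comm R S)
        change ρ g (R.1 a) = S.1 (R.1 a)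
        rw [← Module.End.mul_apply, ← (mE _).mp R.2 g, Module.End.mul_apply, ← hS, ← e3]
        rfl
      exact this ▸ S.2
    have k2 : (ρ g - 1) (ρ g a + a) = 0 := by
      have : ρ g (ρ g a) = a := h.ext' fun z => by rw [h.self_adj ((mE _).mp (k g)), h.inv]
      simp [this, add_comm]
    by_cases e3 : ρ g - 1 = 0
    · exact hg 1 (by rw [sub_eq_zero.mp e3]; simp)
    · have := h.inj_of_comm ((mE _).mp (E.sub_mem (k g) E.one_mem)) e3 (k2.trans (map_zero _).symm)
      exact hg (-1) (by rw [neg_one_smul]; exact eq_neg_of_add_eq_zero_left this)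

theorem avg [Fintype G] (a b y : V) :
    ∑ g, B (ρ g a) y • ρ g b = ((Nat.card G : ℚ) / 23 * B a b) • y := by
  let T : Module.End ℚ V := ∑ g, (B (ρ g a)).smulRight (ρ g b)
  have hT : ∀ z, T z = ∑ g, B (ρ g a) z • ρ g b := fun z => by simp [T]
  obtain ⟨c, hc⟩ := h.schur (T := T) fun k => LinearMap.ext fun z => by
    rw [Module.End.mul_apply, Module.End.mul_apply, hT, hT, map_sum]
    refine (Fintype.sum_equiv (Equiv.mulLeft k) _ _ fun g => ?_).symm
    simp [h.inv]
  have e := congrArg (LinearMap.trace ℚ V) hc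
  simp only [T, map_sum, LinearMap.trace_smulRight, h.inv, Finset.sum_const, Finset.card_univ,
    map_smul, LinearMap.trace_one, h.dim, nsmul_eq_mul, smul_eq_mul] at e
  rw [← hT, hc, Nat.card_eq_fintype_card]
  simp only [LinearMap.smul_apply, Module.End.one_apply]
  congr 1
  push_cast at e
  linarith

theorem fix {x : G} (hx : x ^ 23 = 1) (x1 : x ≠ 1) :
    ∃ v, v ≠ 0 ∧ ρ x v = v ∧ ∀ y, ρ x y = y → ∃ c : ℚ, y = c • v := by
  let A : LinearMap.BilinForm ℚ V := B.compLeft (ρ x) - B.compRight (ρ x)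
  have hA : ∀ a b, A a b = B (ρ x a) b - B a (ρ x b) := fun a b => rfl
  obtain ⟨v, v0, hv⟩ := alt_deg (by rw [h.dim]; decide) A fun a b => by
    rw [hA, hA, h.symm (ρ x a), h.symm a]
    ring
  have e1 : ρ (x ^ 2) v = v := h.ext' fun z => by
    have := hv (ρ x⁻¹ z)
    rw [hA, ← h.adj, ← Module.End.mul_apply (ρ x) (ρ x⁻¹), ← map_mul, mul_inv_cancel, map_one,
      sub_eq_zero] at this
    simpa [pow_two] using this
  have e2 : ∀ n, ρ ((x ^ 2) ^ n) v = v := fun n => by
    induction n with
    | zero => simp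
    | succ n ih => rw [pow_succ, map_mul, Module.End.mul_apply, e1, ih]
  have e3 : ρ x v = v := by
    have := e2 12
    rwa [← pow_mul, show 2 * 12 = 23 + 1 from rfl, pow_succ, hx, one_mul] at this
  refine ⟨v, v0, e3, ?_⟩
  let N : Module.End ℚ V := ∑ i ∈ Finset.range 23, ρ x ^ i
  have fx : ∀ y, ρ x y = y → N y = (23 : ℚ) • y := fun y hy => by
    have : ∀ i, (ρ x ^ i) y = y := fun i => by
      induction i with
      | zero => rfl
      | succ n ih => rw [pow_succ, Module.End.mul_apply, hy, ih]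
    simp [N, this, ← Nat.cast_smul_eq_nsmul ℚ]
  have g1 : N * (ρ x - 1) = 0 := by rw [geom_sum_mul, ← map_pow, hx, map_one, sub_self]
  have g2 : (ρ x - 1) * N = 0 := by rw [mul_geom_sum, ← map_pow, hx, map_one, sub_self]
  obtain ⟨w, hw⟩ : ∃ w, (ρ x - 1) w ≠ 0 := by
    by_contra hc
    push Not at hc
    exact x1 (h.inj x (sub_eq_zero.mp (LinearMap.ext hc)))
  have d1 := dim_ge (ρ x) (LinearMap.ker N) (fun y hy => by
    rw [LinearMap.mem_ker] at hy ⊢
    have := LinearMap.congr_fun g1 y
    rwa [Module.End.mul_apply, LinearMap.sub_apply, map_sub, Module.End.one_apply, hy, sub_zero,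
      LinearMap.zero_apply] at this) (y := (ρ x - 1) w) (by
      rw [LinearMap.mem_ker, ← Module.End.mul_apply, g1, LinearMap.zero_apply]) hw (by
      have := LinearMap.congr_fun g1 w
      simpa only [N, Module.End.mul_apply, LinearMap.sum_apply, LinearMap.zero_apply] using this)
  have d2 := LinearMap.finrank_range_add_finrank_ker N
  rw [h.dim] at d2
  have m : ∀ y, ρ x y = y → y ∈ LinearMap.range N := fun y hy =>
    ⟨(23 : ℚ)⁻¹ • y, by rw [map_smul, fx y hy, smul_smul]; norm_num⟩
  intro y hy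
  have d3 : Submodule.span ℚ {v} = LinearMap.range N :=
    Submodule.eq_of_le_of_finrank_le ((Submodule.span_singleton_le_iff_mem _ _).mpr (m v e3))
      (by rw [finrank_span_singleton v0]; omega)
  obtain ⟨c, hc⟩ := Submodule.mem_span_singleton.mp (d3 ▸ m y hy)
  exact ⟨c, hc.symm⟩

theorem prime_le [Finite G] {l : ℕ} (hl : l.Prime) (hd : l ∣ Nat.card G) : l ≤ 23 := by
  have := Fact.mk hl
  obtain ⟨g, hg⟩ := exists_prime_orderOf_dvd_card' l hd
  have := tot_le (ρ g) hl (k := 0) (by rw [zero_add, pow_one, ← map_pow, ← hg, pow_orderOf_eq_one,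
    map_one]) (by
      rw [pow_zero, pow_one]
      intro e
      rw [h.inj g e, orderOf_one] at hg
      exact hl.one_lt.ne hg)
  rw [h.dim, pow_zero, one_mul] at this
  have h24 : l ≠ 24 := by rintro rfl; norm_num at hl
  omega

theorem sum_fix {x : G} (hx : x ^ 23 = 1) {v : V} (v0 : v ≠ 0) (hv : ρ x v = v)
    (hf : ∀ y, ρ x y = y → ∃ c : ℚ, y = c • v) (y : V) :
    ∑ i ∈ Finset.range 23, ρ (x ^ i) y = (23 * B v y / B v v) • v := by
  have g2 : (ρ x - 1) * ∑ i ∈ Finset.range 23, ρ x ^ i = 0 := by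
    rw [mul_geom_sum, ← map_pow, hx, map_one, sub_self]
  obtain ⟨c, hc⟩ := hf (∑ i ∈ Finset.range 23, ρ (x ^ i) y) (by
    have := LinearMap.congr_fun g2 y
    simpa only [map_pow, Module.End.mul_apply, LinearMap.sum_apply, LinearMap.zero_apply,
      LinearMap.sub_apply, Module.End.one_apply, sub_eq_zero] using this)
  have fx : ∀ i, ρ (x ^ i) v = v := fun i => by
    induction i with
    | zero => simp
    | succ n ih => rw [pow_succ, map_mul, Module.End.mul_apply, hv, ih]
  have e := congrArg (B v) hc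
  have e2 : ∀ i, B v (ρ (x ^ i) y) = B v y := fun i => by
    conv_lhs => rw [← fx i]
    exact h.inv _ _ _
  simp only [map_sum, e2, Finset.sum_const, Finset.card_range, map_smul, smul_eq_mul,
    nsmul_eq_mul] at e
  rw [hc]
  congr 1
  have := (h.pos v v0).ne'
  field_simp
  push_cast at e
  linarith

theorem not_sq [Finite G] : ¬ 23 ^ 2 ∣ Nat.card G := fun hd => by
  classical
  have : Fact (Nat.Prime 23) := ⟨by norm_num⟩
  obtain ⟨P, hP⟩ := Sylow.exists_subgroup_card_pow_prime 23 hd
  have := Fintype.ofFinite P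
  have ex : ∀ g : P, (g : G) ^ 23 = 1 := fun g => by
    by_contra hc
    have := tot_le (ρ g) (p := 23) (by norm_num) (k := 1) (by
      rw [← map_pow, ← hP, ← Subgroup.coe_pow, pow_card_eq_one', Subgroup.coe_one, map_one]) (by
      rw [pow_one, ← map_pow]
      exact fun e => hc (h.inj _ e))
    rw [h.dim] at this
    norm_num at this
  let t : P → ℚ := fun g => LinearMap.trace ℚ V (ρ g)
  have t1 : t 1 = 23 := by simp [t, h.dim]
  have s1 : ∀ g : P, g ≠ 1 → ∑ i ∈ Finset.range 23, t (g ^ i) = 23 := fun g hg => by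
    obtain ⟨v, v0, hv, hf⟩ := h.fix (ex g) fun e => hg (Subtype.ext e)
    have e : ∑ i ∈ Finset.range 23, ρ ((g : G) ^ i) = ((23 / B v v) • B v).smulRight v :=
      LinearMap.ext fun y => by
        rw [LinearMap.sum_apply, h.sum_fix (ex g) v0 hv hf]
        simp only [LinearMap.smulRight_apply, LinearMap.smul_apply, smul_eq_mul]
        congr 1
        ring
    have e2 := congrArg (LinearMap.trace ℚ V) e
    rw [map_sum, LinearMap.trace_smulRight] at e2
    have := (h.pos v v0).ne'
    simp only [LinearMap.smul_apply, smul_eq_mul] at e2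
    rw [div_mul_cancel₀ _ this] at e2
    exact e2
  have s2 : ∑ g : P, ∑ i ∈ Finset.range 23, t (g ^ i) = 23 * 23 + 528 * 23 := by
    rw [← Finset.add_sum_erase _ _ (Finset.mem_univ 1),
      Finset.sum_congr rfl fun g hg => s1 g (Finset.ne_of_mem_erase hg)]
    simp [t1, ← Nat.card_eq_fintype_card, hP]
  have s3 : ∀ i ∈ Finset.range 22, ∑ g : P, t (g ^ (i + 1)) = ∑ g : P, t g := fun i hi =>
    Fintype.sum_equiv (powCoprime (G := P) (n := i + 1) (by
      rw [hP]
      refine Nat.Coprime.pow_left _ ((Nat.Prime.coprime_iff_not_dvd (by norm_num)).mpr fun e => ?_)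
      have := Nat.le_of_dvd (by omega) e
      have := Finset.mem_range.mp hi
      omega)) _ _ fun g => rfl
  rw [Finset.sum_comm, Finset.sum_range_succ', Finset.sum_congr rfl s3] at s2
  simp only [Finset.sum_const, Finset.card_range, pow_zero, t1, Finset.card_univ,
    ← Nat.card_eq_fintype_card, hP, nsmul_eq_mul] at s2
  have : Invertible (Nat.card P : ℚ) := invertibleOfNonzero (by rw [hP]; norm_num)
  have s4 := Representation.card_inv_mul_sum_char_eq_finrank (ρ.comp P.subtype)
  have s5 : ∑ g : P, Representation.character (ρ.comp P.subtype) g = ∑ g : P, t g := rfl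
  rw [s5, hP] at s4
  generalize finrank ℚ (Representation.invariants (ρ.comp P.subtype)) = n at s4
  have s6 : (529 : ℚ) * n = 23 := by
    push_cast at s2 s4
    linarith
  have s7 : 529 * n = 23 := by exact_mod_cast s6
  omega

end Rep

end Cfsg.Agent.H2.F23
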