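import Cfsg.Agent.H2.F23a

/-!
# Rational representations of degree twenty-three: lattices of minimal determinant
-/

set_option autoImplicit false

namespace Cfsg.Agent.H2.F23

open Module Submodule

variable {V : Type*} [AddCommGroup V] [Module ℚ V] {G : Type*} [Group G]

theorem exists_basis [FiniteDimensional ℚ V] (hd : finrank ℚ V = 23) (M : Submodule ℤ V)
    (fg : M.FG) (sp : span ℚ (M : Set V) = ⊤) :
    ∃ b : Basis (Fin 23) ℚ V, M = span ℤ (Set.range b) := by
  have : IsLattice ℚ M := ⟨fg, sp⟩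
  have hr : finrank ℤ M = 23 := by
    rw [← hd, finrank, finrank, IsLattice.rank' ℚ M]
  let b := finBasisOfFinrankEq ℤ M hr
  refine ⟨b.extendOfIsLattice ℚ, ?_⟩
  have e : Set.range (b.extendOfIsLattice ℚ) = M.subtype '' Set.range b := by
    rw [← Set.range_comp]
    congr 1
    funext i
    simp
  rw [e, ← map_span, b.span_eq, Submodule.map_top, range_subtype]

theorem exists_form [Finite G] [FiniteDimensional ℚ V] (ρ : Representation ℚ G V) :
    ∃ B : LinearMap.BilinForm ℚ V, (∀ a b, B a b = B b a) ∧ (∀ a, a ≠ 0 → 0 < B a a) ∧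
      ∀ g a b, B (ρ g a) (ρ g b) = B a b := by
  have := Fintype.ofFinite G
  let b := Module.finBasis ℚ V
  let B : LinearMap.BilinForm ℚ V :=
    ∑ g, ∑ i, (LinearMap.mul ℚ ℚ).compl₁₂ (b.coord i ∘ₗ ρ g) (b.coord i ∘ₗ ρ g)
  have hB : ∀ a c, B a c = ∑ g, ∑ i, b.repr (ρ g a) i * b.repr (ρ g c) i := fun a c => by
    simp [B]
  refine ⟨B, fun a c => by simp only [hB, mul_comm], fun a ha => ?_, fun k a c => ?_⟩
  · rw [hB]
    obtain ⟨i, hi⟩ : ∃ i, b.repr a i ≠ 0 := by
      by_contra hc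
      push Not at hc
      exact ha (b.repr.map_eq_zero_iff.mp (Finsupp.ext hc))
    refine Finset.sum_pos' (fun g _ => Finset.sum_nonneg fun i _ => mul_self_nonneg _)
      ⟨1, Finset.mem_univ _, Finset.sum_pos' (fun i _ => mul_self_nonneg _)
        ⟨i, Finset.mem_univ _, ?_⟩⟩
    simpa using hi
  · rw [hB, hB]
    refine Fintype.sum_equiv (Equiv.mulRight k) _ _ fun g => ?_
    simp

theorem int_of_span {ι : Type*} (B : LinearMap.BilinForm ℚ V) (v : ι → V) {y : V}
    (hv : ∀ i, ∃ k : ℤ, B y (v i) = k) : ∀ a ∈ span ℤ (Set.range v), ∃ k : ℤ, B y a = k := by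
  intro a ha
  induction ha using span_induction with
  | mem a ha => obtain ⟨i, rfl⟩ := ha; exact hv i
  | zero => exact ⟨0, by simp⟩
  | add a b _ _ h1 h2 =>
    obtain ⟨k, hk⟩ := h1
    obtain ⟨l, hl⟩ := h2
    exact ⟨k + l, by simp [hk, hl]⟩
  | smul c a _ h1 =>
    obtain ⟨k, hk⟩ := h1
    exact ⟨c * k, by simp [hk]⟩

/-- An invariant integral lattice of minimal determinant. -/
structure Min (ρ : Representation ℚ G V) (B : LinearMap.BilinForm ℚ V) (L : Submodule ℤ V) :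
    Prop extends Rep ρ B where
  bas : ∃ b : Basis (Fin 23) ℚ V, L = span ℤ (Set.range b)
  invL : ∀ g, ∀ a ∈ L, ρ g a ∈ L
  int : ∀ a ∈ L, ∀ b ∈ L, ∃ k : ℤ, B a b = k
  key : ∀ (M : Submodule ℤ V) (c : ℚ), L ≤ M → M.FG → (∀ g, ∀ a ∈ M, ρ g a ∈ M) → 0 < c →
    (∀ a ∈ M, ∀ b ∈ M, ∃ k : ℤ, c * B a b = k) →
    (L.toAddSubgroup.relIndex M.toAddSubgroup : ℚ) ^ 2 ≤ c ^ 23 ∧
      L.toAddSubgroup.relIndex M.toAddSubgroup ≠ 0

theorem det_int (B : LinearMap.BilinForm ℚ V) (b : Basis (Fin 23) ℚ V)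
    (hb : ∀ i j, ∃ k : ℤ, B (b i) (b j) = k) :
    ∃ n : ℕ, |(LinearMap.BilinForm.toMatrix b B).det| = n := by
  choose k hk using hb
  have e : LinearMap.BilinForm.toMatrix b B = (Int.castRingHom ℚ).mapMatrix (Matrix.of k) := by
    ext i j
    simp [hk]
  exact ⟨(Matrix.of k).det.natAbs, by rw [e, ← RingHom.map_det, Nat.cast_natAbs]; simp⟩

theorem exists_min [Finite G] {ρ : Representation ℚ G V} {B₀ : LinearMap.BilinForm ℚ V}
    (h : Rep ρ B₀) : ∃ B L, Min ρ B L := by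
  classical
  have fin : FiniteDimensional ℚ V := Module.finite_of_finrank_pos (by rw [h.dim]; norm_num)
  have := Fintype.ofFinite G
  let S : ℕ → Prop := fun n => ∃ (B : LinearMap.BilinForm ℚ V) (b : Basis (Fin 23) ℚ V),
    Rep ρ B ∧ (∀ g, ∀ a ∈ span ℤ (Set.range b), ρ g a ∈ span ℤ (Set.range b)) ∧
    (∀ a ∈ span ℤ (Set.range b), ∀ c ∈ span ℤ (Set.range b), ∃ k : ℤ, B a c = k) ∧
    |(LinearMap.BilinForm.toMatrix b B).det| = n
  have hS : ∃ n, S n := by
    let e := Module.finBasis ℚ V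
    let v : G × Fin (finrank ℚ V) → V := fun p => ρ p.1 (e p.2)
    obtain ⟨b, hb⟩ := exists_basis h.dim (span ℤ (Set.range v)) (fg_span (Set.finite_range v))
      (by
        rw [eq_top_iff, ← e.span_eq]
        refine span_mono ?_
        rintro _ ⟨i, rfl⟩
        exact subset_span ⟨(1, i), by simp [v]⟩)
    obtain ⟨c, hc⟩ := IsLocalization.exist_integer_multiples_of_finite (nonZeroDivisors ℤ)
      (fun p : Fin 23 × Fin 23 => B₀ (b p.1) (b p.2))
    have c0 : (0 : ℚ) < (c : ℤ) ^ 2 := by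
      have := nonZeroDivisors.coe_ne_zero c
      positivity
    have hi : ∀ i j, ∃ k : ℤ, ((((c : ℤ) : ℚ) ^ 2) • B₀) (b i) (b j) = k := fun i j => by
      obtain ⟨k, hk⟩ := hc (i, j)
      refine ⟨c * k, ?_⟩
      simp only [algebraMap_int_eq, eq_intCast, zsmul_eq_mul] at hk
      simp only [LinearMap.smul_apply, smul_eq_mul]
      push_cast
      rw [hk]
      ring
    obtain ⟨n, hn⟩ := det_int _ b hi
    refine ⟨n, _, b, h.smul c0, fun g a ha => ?_, fun a ha c' hc' => ?_, hn⟩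
    · rw [← hb] at ha ⊢
      have : (span ℤ (Set.range v)).map ((ρ g).restrictScalars ℤ) ≤ span ℤ (Set.range v) := by
        rw [map_span, span_le]
        rintro _ ⟨_, ⟨p, rfl⟩, rfl⟩
        exact subset_span ⟨(g * p.1, p.2), by simp [v]⟩
      exact this ⟨a, ha, rfl⟩
    · refine int_of_span _ b (fun i => ?_) c' hc'
      rw [(h.smul c0).symm]
      exact int_of_span _ b (hi i) a ha
  obtain ⟨B, b, hB, hinv, hint, hn⟩ := Nat.find_spec hS
  refine ⟨B, span ℤ (Set.range b), hB, ⟨b, rfl⟩, hinv, hint, fun M c hM fg inv c0 hi => ?_⟩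
  obtain ⟨b', rfl⟩ := exists_basis h.dim M fg (by
    rw [eq_top_iff, ← b.span_eq]
    exact span_mono (subset_span.trans hM))
  obtain ⟨m, hm⟩ := det_int (c • B) b' fun i j => hi _ (subset_span ⟨i, rfl⟩) _
    (subset_span ⟨j, rfl⟩)
  have le : Nat.find hS ≤ m := Nat.find_min' hS ⟨c • B, b', hB.smul c0, inv, hi, hm⟩
  have e1 := AddSubgroup.relIndex_eq_abs_det (span ℤ (Set.range b)).toAddSubgroup
    (span ℤ (Set.range b')).toAddSubgroup hM b b' (span_int_eq_addSubgroupClosure _)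
    (span_int_eq_addSubgroupClosure _)
  have e2 := congrArg Matrix.det (LinearMap.BilinForm.toMatrix_mul_basis_toMatrix b' b B)
  rw [Matrix.det_mul, Matrix.det_mul, Matrix.det_transpose, ← Basis.det_apply] at e2
  have e3 := (LinearMap.BilinForm.nondegenerate_iff_det_ne_zero b').mp hB.nondeg
  have e4 := (LinearMap.BilinForm.nondegenerate_iff_det_ne_zero b).mp hB.nondeg
  rw [map_smul, Matrix.det_smul, Fintype.card_fin, abs_mul, abs_of_pos (pow_pos c0 _)] at hm
  have le' : (Nat.find hS : ℚ) ≤ m := by exact_mod_cast le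
  rw [← hn, ← hm, ← e2, mul_right_comm, abs_mul, ← sq, abs_pow] at le'
  refine ⟨?_, fun e => e4 ?_⟩
  · rw [e1]
    exact le_of_mul_le_mul_right le' (abs_pos.mpr e3)
  · rw [e, Nat.cast_zero, eq_comm, abs_eq_zero] at e1
    rw [← e2, e1]
    simp

end Cfsg.Agent.H2.F23
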