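import Mathlib

/-!
# An element of order twenty-three acting on a small elementary abelian group
-/

set_option autoImplicit false

namespace Cfsg.Agent.H2.F23

open Module Polynomial

variable {A : Type*} [AddCommGroup A] [Finite A]

theorem fpf_card (X : Module.End ℤ A) (hX : X ^ 23 = 1) (W : Submodule ℤ A)
    (inv : ∀ a ∈ W, X a ∈ W) (fpf : ∀ a ∈ W, X a = a → a = 0) : Nat.card W ≡ 1 [MOD 23] := by
  classical
  have := Fintype.ofFinite W
  have : Fact (Nat.Prime 23) := ⟨by norm_num⟩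
  let f : Function.End W := fun a => ⟨X a, inv a a.2⟩
  have hf : ∀ n (a : W), ((f ^ n) a : A) = (X ^ n) a := fun n => by
    induction n with
    | zero => exact fun a => rfl
    | succ n ih => exact fun a => by rw [pow_succ, pow_succ]; exact ih (f a)
  have e := Equiv.Perm.card_fixedPoints_modEq (f := f) (p := 23) (n := 1) (by
    funext a
    exact Subtype.ext (by rw [pow_one, hf, hX]; rfl))
  have e2 : Fintype.card (Function.fixedPoints f) = 1 :=
    Fintype.card_eq_one_iff.mpr ⟨⟨0, Subtype.ext (map_zero X)⟩, fun a =>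
      Subtype.ext (Subtype.ext (fpf _ a.1.2 (congrArg Subtype.val a.2)))⟩
  rwa [e2, ← Nat.card_eq_fintype_card] at e

theorem pow_card {l : ℕ} (hl : l.Prime) (h0 : ∀ a : A, (l : ℤ) • a = 0) (W : Submodule ℤ A) :
    ∃ j, Nat.card W = l ^ j := by
  have := Fact.mk hl
  have : IsPGroup l (Multiplicative W) := fun g => ⟨1, by
    rw [pow_one]
    have : l • g.toAdd = 0 := Subtype.ext (by simpa using h0 g.toAdd)
    exact this⟩
  exact this.exists_card_eq

theorem arith {l j : ℕ} (hl : l.Prime) (l23 : l < 23) (hj : j ≤ 11) (e : l ^ j ≡ 1 [MOD 23]) :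
    j = 0 ∨ (j = 11 ∧ (l = 2 ∨ l = 3 ∨ l = 13)) := by
  unfold Nat.ModEq at e
  interval_cases l <;> first | (exfalso; norm_num at hl; done) |
    (interval_cases j <;> first | (norm_num; done) | (exfalso; norm_num at e))

theorem bot_or_top {l : ℕ} (hl : l.Prime) (l23 : l < 23) (h0 : ∀ a : A, (l : ℤ) • a = 0)
    (hc : Nat.card A ^ 2 ≤ l ^ 23) (X : Module.End ℤ A) (hX : X ^ 23 = 1) (W : Submodule ℤ A)
    (inv : ∀ a ∈ W, X a ∈ W) (fpf : ∀ a ∈ W, X a = a → a = 0) :
    W = ⊥ ∨ (W = ⊤ ∧ (l = 2 ∨ l = 3 ∨ l = 13)) := by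
  obtain ⟨j, hj⟩ := pow_card hl h0 W
  obtain ⟨i, hi⟩ := pow_card hl h0 ⊤
  have e := fpf_card X hX W inv fpf
  have e1 : Nat.card (⊤ : Submodule ℤ A) = Nat.card A := Nat.card_congr Submodule.topEquiv.toEquiv
  rw [← e1, hi, ← pow_mul, Nat.pow_le_pow_iff_right hl.one_lt] at hc
  have e2 : Nat.card W ≤ Nat.card (⊤ : Submodule ℤ A) :=
    Nat.card_le_card_of_injective _ (Submodule.inclusion_injective le_top)
  rw [hi, hj, Nat.pow_le_pow_iff_right hl.one_lt] at e2
  rw [hj] at e
  rcases arith hl l23 (by omega) e with rfl | ⟨rfl, h2⟩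
  · left
    rw [pow_zero] at hj
    have := (Nat.card_eq_one_iff_unique.mp hj).1
    exact (Submodule.eq_bot_iff _).mpr fun a ha =>
      congrArg Subtype.val (Subsingleton.elim (⟨a, ha⟩ : W) 0)
  · refine Or.inr ⟨?_, h2⟩
    have : W.toAddSubgroup = ⊤ := AddSubgroup.eq_top_of_card_eq _ (by
      rw [← e1, hi, show i = 11 by omega]; exact hj)
    exact Submodule.toAddSubgroup_injective this

/-- The non-zero squares modulo `23`. -/
def QR : Finset ℕ := {1, 2, 3, 4, 6, 8, 9, 12, 13, 16, 18}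

theorem eta_sq {R : Type*} [Ring R] (X : R) (hX : X ^ 23 = 1) :
    (∑ q ∈ QR, X ^ q) ^ 2 + ∑ q ∈ QR, X ^ q + 6 = 6 * ∑ i ∈ Finset.range 23, X ^ i := by
  have e : (∑ q ∈ QR, (Polynomial.X : ℤ[X]) ^ q) ^ 2 + ∑ q ∈ QR, Polynomial.X ^ q + 6 =
      6 * ∑ i ∈ Finset.range 23, Polynomial.X ^ i + (Polynomial.X ^ 23 - 1) *
        (Polynomial.X ^ 13 + 2 * Polynomial.X ^ 11 + Polynomial.X ^ 9 + 2 * Polynomial.X ^ 8 +
          2 * Polynomial.X ^ 7 + 2 * Polynomial.X ^ 6 + 2 * Polynomial.X ^ 5 +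
          2 * Polynomial.X ^ 4 + 3 * Polynomial.X ^ 3 + 4 * Polynomial.X ^ 2 +
          5 * Polynomial.X) := by
    simp only [QR, Finset.sum_range_succ, Finset.sum_range_zero]
    norm_num
    ring
  have := congrArg (aeval X) e
  simpa [hX, map_ofNat] using this

theorem abs_case {l : ℕ} (hl : l.Prime) (l23 : l < 23) (h0 : ∀ a : A, (l : ℤ) • a = 0)
    (hc : Nat.card A ^ 2 ≤ l ^ 23) (X : Module.End ℤ A) (hX : X ^ 23 = 1) :
    (∀ a, X a = a) ∨ ∃ c : ℤ, IsCoprime (2 * c + 1) l ∧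
      ∀ a, (∑ q ∈ QR, X ^ q) a = c • a ∧ (∑ i ∈ Finset.range 23, X ^ i) a = 0 := by
  have g1 : (∑ i ∈ Finset.range 23, X ^ i) * (X - 1) = 0 := by rw [geom_sum_mul, hX, sub_self]
  have cp : IsCoprime (23 : ℤ) l := by
    have : Nat.Coprime 23 l := (Nat.coprime_primes (by norm_num) hl).mpr (by omega)
    exact_mod_cast Nat.isCoprime_iff_coprime.mpr this
  have fp : ∀ a ∈ LinearMap.range (X - 1), X a = a → a = 0 := by
    rintro _ ⟨b, rfl⟩ hb
    have e : ∀ i, (X ^ i) ((X - 1) b) = (X - 1) b := fun i => by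
      induction i with
      | zero => rfl
      | succ n ih => rw [pow_succ, Module.End.mul_apply, hb, ih]
    have e2 := LinearMap.congr_fun g1 b
    rw [Module.End.mul_apply, LinearMap.sum_apply, Finset.sum_congr rfl fun i _ => e i,
      Finset.sum_const, Finset.card_range, LinearMap.zero_apply, ← natCast_zsmul] at e2
    obtain ⟨u, v, huv⟩ := cp
    rw [← one_smul ℤ ((X - 1) b), ← huv, add_smul, mul_smul, mul_smul, h0, smul_zero, add_zero]
    exact (congrArg (u • ·) e2).trans (smul_zero u)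
  rcases bot_or_top hl l23 h0 hc X hX (LinearMap.range (X - 1)) (by
    rintro _ ⟨b, rfl⟩
    exact ⟨X b, by simp⟩) fp with e | ⟨e, hl3⟩
  · exact Or.inl fun a => sub_eq_zero.mp (LinearMap.congr_fun (LinearMap.range_eq_bot.mp e) a)
  right
  have fp' : ∀ a, X a = a → a = 0 := fun a => fp a (e ▸ trivial)
  have N0 : ∀ a, (∑ i ∈ Finset.range 23, X ^ i) a = 0 := fun a => by
    obtain ⟨b, rfl⟩ : a ∈ LinearMap.range (X - 1) := e ▸ trivial
    exact LinearMap.congr_fun g1 b
  set η := ∑ q ∈ QR, X ^ q with hη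
  have cm : η * X = X * η := by
    rw [hη, Finset.sum_mul, Finset.mul_sum]
    exact Finset.sum_congr rfl fun q _ => by rw [← pow_succ, ← pow_succ']
  have sq : ∀ a, η (η a) + η a + (6 : ℤ) • a = 0 := fun a => by
    have := LinearMap.congr_fun (eta_sq X hX) a
    rw [Module.End.mul_apply, N0, map_zero] at this
    simpa [pow_two, ← hη, Module.End.ofNat_apply, ← natCast_zsmul] using this
  have main : ∀ c k : ℤ, c * (-1 - c) = 6 + k * l → IsCoprime (2 * c + 1) l →
      ∃ c : ℤ, IsCoprime (2 * c + 1) l ∧ ∀ a, η a = c • a ∧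
        (∑ i ∈ Finset.range 23, X ^ i) a = 0 := fun c k hk hco => by
    rcases bot_or_top hl l23 h0 hc X hX (LinearMap.ker (η - c • 1)) (fun a ha => by
      rw [LinearMap.mem_ker] at ha ⊢
      have : (η - c • 1) * X = X * (η - c • 1) := by
        rw [sub_mul, mul_sub, cm, smul_mul_assoc, mul_smul_comm, one_mul, mul_one]
      rw [← Module.End.mul_apply, this, Module.End.mul_apply, ha, map_zero])
      (fun a _ => fp' a) with e | ⟨e, -⟩
    · refine ⟨-1 - c, ?_, fun a => ⟨?_, N0 a⟩⟩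
      · rw [show 2 * (-1 - c) + 1 = -(2 * c + 1) by ring]
        exact hco.neg_left
      · rw [← sub_eq_zero]
        apply (Submodule.eq_bot_iff _).mp e
        have e1 := sq a
        have e2 := congrArg (k • ·) (h0 a)
        simp only [smul_smul, smul_zero] at e2
        simp only [LinearMap.mem_ker, LinearMap.sub_apply, LinearMap.smul_apply,
          Module.End.one_apply, map_sub, map_zsmul, smul_sub, smul_smul]
        rw [mul_comm, hk, add_smul, e2, add_zero, ← e1]
        module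
    · exact ⟨c, hco, fun a => ⟨sub_eq_zero.mp
        (LinearMap.congr_fun (LinearMap.ker_eq_top.mp e) a), N0 a⟩⟩
  rcases hl3 with rfl | rfl | rfl
  · exact main 0 (-3) (by norm_num) (by norm_num [isCoprime_one_left])
  · exact main 0 (-2) (by norm_num) (by norm_num [isCoprime_one_left])
  · exact main 4 (-2) (by norm_num) (by norm_num)

end Cfsg.Agent.H2.F23
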