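import Cfsg.Agent.H2.F23a

/-!
# Rational representations of degree twenty-three: the reduced lattice
-/

set_option autoImplicit false

namespace Cfsg.Agent.H2.F23

open Module

variable {V : Type*} [AddCommGroup V] [Module ℚ V] {G : Type*} [Group G]

/-- The data obtained from a lattice of minimal determinant. -/
structure Lat (ρ : Representation ℚ G V) (B : LinearMap.BilinForm ℚ V) (L : Submodule ℤ V)
    (x : G) (w : V) (d : ℕ) : Prop extends Rep ρ B where
  fg : L.FG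
  sp : Submodule.span ℚ (L : Set V) = ⊤
  invL : ∀ g, ∀ a ∈ L, ρ g a ∈ L
  int : ∀ a ∈ L, ∀ b ∈ L, ∃ k : ℤ, B a b = k
  x23 : x ^ 23 = 1
  w0 : w ≠ 0
  xw : ρ x w = w
  fixw : ∀ y, ρ x y = y → ∃ c : ℚ, y = c • w
  wint : ∀ a ∈ L, ∃ k : ℤ, B a w = k
  dual : ∀ y, (∀ a ∈ L, ∃ k : ℤ, B y a = k) → ∃ k : ℤ, y - (k : ℚ) • w ∈ L
  dw : ∀ c : ℚ, c • w ∈ L ↔ ∃ k : ℤ, c = d * k
  ww : (d : ℚ) * B w w = 23
  l1 : ∃ l ∈ L, B l w = 1
  sqf : Squarefree d
  nd : ¬ 23 ∣ d

/-- The dual of the part of `L` orthogonal to `w`. -/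
def PP (B : LinearMap.BilinForm ℚ V) (L : Submodule ℤ V) (w y : V) : Prop :=
  B y w = 0 ∧ ∀ a ∈ L, B a w = 0 → ∃ k : ℤ, B y a = k

/-- The case of the root lattice of type `A`. -/
def CaseA (ρ : Representation ℚ G V) (B : LinearMap.BilinForm ℚ V) (L : Submodule ℤ V)
    (x : G) (w : V) : Prop :=
  ∃ y, PP B L w y ∧ ∀ i, 0 < i → i < 23 → B y (ρ (x ^ i) y) = -1 / 23

/-- The other case. -/
def NonA (B : LinearMap.BilinForm ℚ V) (L : Submodule ℤ V) (w : V) : Prop :=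
  ∀ y, PP B L w y → y ≠ 0 → B y y ≤ 2 → B y y = 44 / 23

theorem sum_sym (f : ℕ → ℚ) (hf : ∀ i, i ≤ 23 → f (23 - i) = f i) :
    ∑ i ∈ Finset.range 23, f i = f 0 + 2 * ∑ i ∈ Finset.range 11, f (i + 1) := by
  have h12 := hf 11 (by norm_num)
  have h13 := hf 10 (by norm_num)
  have h14 := hf 9 (by norm_num)
  have h15 := hf 8 (by norm_num)
  have h16 := hf 7 (by norm_num)
  have h17 := hf 6 (by norm_num)
  have h18 := hf 5 (by norm_num)
  have h19 := hf 4 (by norm_num)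
  have h20 := hf 3 (by norm_num)
  have h21 := hf 2 (by norm_num)
  have h22 := hf 1 (by norm_num)
  norm_num [Finset.sum_range_succ] at *
  linarith

theorem exists_int_sum {ι : Type*} (s : Finset ι) (f : ι → ℚ) (hf : ∀ i ∈ s, ∃ k : ℤ, f i = k) :
    ∃ k : ℤ, ∑ i ∈ s, f i = k := by
  choose! k hk using hf
  exact ⟨∑ i ∈ s, k i, by rw [Finset.sum_congr rfl hk]; push_cast; rfl⟩

namespace Lat

variable {ρ : Representation ℚ G V} {B : LinearMap.BilinForm ℚ V} {L : Submodule ℤ V}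
  {x : G} {w : V} {d : ℕ} (h : Lat ρ B L x w d)
include h

theorem dpos : 0 < d := Nat.pos_of_ne_zero fun e => by
  have := h.ww
  rw [e] at this
  norm_num at this

theorem ww' : B w w = 23 / d := by
  have := h.ww
  have : (d : ℚ) ≠ 0 := by exact_mod_cast h.dpos.ne'
  field_simp
  linarith

theorem xiw (i : ℕ) : ρ (x ^ i) w = w := by
  induction i with
  | zero => simp
  | succ n ih => rw [pow_succ, map_mul, Module.End.mul_apply, h.xw, ih]

theorem B_xi_w (i : ℕ) (a : V) : B (ρ (x ^ i) a) w = B a w := by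
  conv_lhs => rw [← h.xiw i]
  exact h.inv _ _ _

theorem fin : FiniteDimensional ℚ V := Module.finite_of_finrank_pos (by rw [h.dim]; norm_num)

theorem sumX (y : V) : ∑ i ∈ Finset.range 23, ρ (x ^ i) y = (d * B y w) • w := by
  have := h.fin
  rw [h.toRep.sum_fix h.x23 h.w0 h.xw h.fixw, h.ww', h.symm w y]
  congr 1
  have : (d : ℚ) ≠ 0 := by exact_mod_cast h.dpos.ne'
  field_simp

theorem sym (a : V) (i : ℕ) (hi : i ≤ 23) : B a (ρ (x ^ (23 - i)) a) = B a (ρ (x ^ i) a) := by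
  rw [← h.inv (x ^ i), ← Module.End.mul_apply, ← map_mul, ← pow_add, Nat.add_sub_cancel' hi,
    h.x23, map_one, Module.End.one_apply, h.symm]

theorem fix_pow {i : ℕ} (i0 : 0 < i) (hi : i < 23) {y : V} (hy : ρ (x ^ i) y = y) :
    ∃ c : ℚ, y = c • w := by
  apply h.fixw
  have hc : Nat.Coprime i 23 := (Nat.coprime_comm.mp ((Nat.Prime.coprime_iff_not_dvd
    (by norm_num)).mpr fun e => absurd (Nat.le_of_dvd i0 e) (by omega)))
  obtain ⟨m, -, hm⟩ := Nat.exists_mul_mod_eq_one_of_coprime hc (by norm_num)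
  have e : ∀ n, ρ ((x ^ i) ^ n) y = y := fun n => by
    induction n with
    | zero => simp
    | succ n ih => rw [pow_succ, map_mul, Module.End.mul_apply, hy, ih]
  have := e m
  rwa [← pow_mul, ← Nat.div_add_mod (i * m) 23, hm, pow_add, pow_mul, h.x23, one_pow, one_mul,
    pow_one] at this

theorem par {l : V} (hl : l ∈ L) : ∃ k : ℤ, B l l = d * B l w + 2 * k := by
  have e := congrArg (B l) (h.sumX l)
  rw [map_sum, sum_sym (fun i => B l (ρ (x ^ i) l)) (h.sym l)] at e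
  obtain ⟨k, hk⟩ := exists_int_sum (Finset.range 11) (fun i => B l (ρ (x ^ (i + 1)) l))
    fun i _ => h.int l hl _ (h.invL _ l hl)
  obtain ⟨j, hj⟩ := h.wint l hl
  obtain ⟨r, hr⟩ := Int.even_mul_pred_self j
  have hr' : (j : ℚ) * (j - 1) = r + r := by exact_mod_cast hr
  simp only [hk, pow_zero, map_one, Module.End.one_apply, map_smul, smul_eq_mul, hj] at e
  exact ⟨d * r - k, by rw [hj]; push_cast; linear_combination e + d * hr'⟩

theorem even0 {a : V} (ha : a ∈ L) (h0 : B a w = 0) : ∃ k : ℤ, B a a = 2 * k := by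
  obtain ⟨k, hk⟩ := h.par ha
  exact ⟨k, by rw [hk, h0]; ring⟩

theorem PP_of_mem {a : V} (ha : a ∈ L) (h0 : B a w = 0) : PP B L w a :=
  ⟨h0, fun b hb _ => h.int a ha b hb⟩

theorem PP_proj {y : V} (hy : ∀ a ∈ L, B a w = 0 → ∃ k : ℤ, B y a = k) :
    PP B L w (y - (d * B y w / 23) • w) := by
  refine ⟨?_, fun a ha h0 => ?_⟩
  · simp only [map_sub, map_smul, LinearMap.sub_apply, LinearMap.smul_apply, smul_eq_mul]
    linear_combination (-(B y w) / 23) * h.ww
  · obtain ⟨k, hk⟩ := hy a ha h0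
    exact ⟨k, by simp [hk, h.symm w a, h0]⟩

theorem norm_proj (y : V) : B (y - (d * B y w / 23) • w) (y - (d * B y w / 23) • w) =
    B y y - d * B y w ^ 2 / 23 := by
  simp only [map_sub, map_smul, LinearMap.sub_apply, LinearMap.smul_apply, smul_eq_mul, h.symm w y]
  linear_combination (d * B y w ^ 2 / 529) * h.ww

theorem PP_x {y : V} (hy : PP B L w y) (i : ℕ) : PP B L w (ρ (x ^ i) y) :=
  ⟨by rw [h.B_xi_w, hy.1], fun a ha h0 => by
    rw [h.toRep.adj]
    refine hy.2 _ (h.invL _ a ha) ?_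
    rw [← h.B_xi_w i, ← Module.End.mul_apply, ← map_mul, mul_inv_cancel, map_one,
      Module.End.one_apply, h0]⟩

theorem PP_add {y : V} (hy : PP B L w y) : ∃ k : ℤ, y + ((k : ℚ) * d / 23) • w ∈ L := by
  obtain ⟨l, hl, l1⟩ := h.l1
  obtain ⟨k, hk⟩ := h.dual (y - B y l • w) fun a ha => by
    obtain ⟨j, hj⟩ := h.wint a ha
    obtain ⟨k, hk⟩ := hy.2 (a - j • l) (L.sub_mem ha (L.smul_mem j hl)) (by simp [hj, l1])
    refine ⟨k, ?_⟩
    simp only [map_sub, map_zsmul, zsmul_eq_mul, map_smul, LinearMap.sub_apply,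
      LinearMap.smul_apply, smul_eq_mul, h.symm w a, hj] at hk ⊢
    linarith
  obtain ⟨j, hj⟩ := h.wint _ hk
  refine ⟨j, ?_⟩
  simp only [map_sub, map_smul, LinearMap.sub_apply, LinearMap.smul_apply, smul_eq_mul, hy.1] at hj
  have e : (j : ℚ) * d / 23 = -B y l - k := by
    linear_combination (-(d : ℚ) / 23) * hj - ((B y l + k) / 23) * h.ww
  rw [e, sub_smul, neg_smul]
  convert hk using 1
  abel

theorem PP_sub {y : V} (hy : PP B L w y) (i : ℕ) : y - ρ (x ^ i) y ∈ L := by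
  obtain ⟨k, hk⟩ := h.PP_add hy
  have := L.sub_mem hk (h.invL (x ^ i) _ hk)
  rwa [map_add, map_smul, h.xiw, add_sub_add_right_eq_sub] at this

theorem PP_sub0 {y : V} (i : ℕ) : B (y - ρ (x ^ i) y) w = 0 := by
  rw [map_sub, LinearMap.sub_apply, h.B_xi_w, sub_self]

theorem PP_n {y : V} (hy : PP B L w y) (i : ℕ) : ∃ n : ℤ, B y y - B y (ρ (x ^ i) y) = n := by
  rw [← map_sub]
  exact hy.2 _ (h.PP_sub hy i) (h.PP_sub0 i)

theorem eq_zero_of_fix {y : V} (h0 : B y w = 0) {i : ℕ} (i0 : 0 < i) (hi : i < 23)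
    (hy : ρ (x ^ i) y = y) : y = 0 := by
  obtain ⟨c, rfl⟩ := h.fix_pow i0 hi hy
  simp only [map_smul, LinearMap.smul_apply, smul_eq_mul, mul_eq_zero] at h0
  rcases h0 with e | e
  · rw [e, zero_smul]
  · exact absurd e (h.pos w h.w0).ne'

theorem n_pos {y : V} (h0 : B y w = 0) (y0 : y ≠ 0) {i : ℕ} (i0 : 0 < i) (hi : i < 23) :
    0 < B y y - B y (ρ (x ^ i) y) := by
  have := h.pos (y - ρ (x ^ i) y) fun e => y0 (h.eq_zero_of_fix h0 i0 hi (sub_eq_zero.mp e).symm)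
  simp only [map_sub, LinearMap.sub_apply, h.inv, h.symm (ρ (x ^ i) y) y] at this
  linarith

theorem norm_eq {y : V} (h0 : B y w = 0) :
    23 * B y y = 2 * ∑ i ∈ Finset.range 11, (B y y - B y (ρ (x ^ (i + 1)) y)) := by
  have e := congrArg (B y) (h.sumX y)
  rw [map_sum, sum_sym (fun i => B y (ρ (x ^ i) y)) (h.sym y)] at e
  simp only [pow_zero, map_one, Module.End.one_apply, map_smul, smul_eq_mul, h0] at e
  rw [Finset.sum_sub_distrib]
  simp only [Finset.sum_const, Finset.card_range, nsmul_eq_mul]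
  push_cast
  linarith

theorem PP_norm {y : V} (hy : PP B L w y) :
    ∃ n : ℤ, 23 * B y y = 2 * n ∧ (y ≠ 0 → 11 ≤ n) := by
  choose n hn using h.PP_n hy
  refine ⟨∑ i ∈ Finset.range 11, n (i + 1), ?_, fun y0 => ?_⟩
  · rw [h.norm_eq hy.1]
    push_cast
    simp only [hn]
  · have : ∀ i ∈ Finset.range 11, 1 ≤ n (i + 1) := fun i hi => by
      have := h.n_pos hy.1 y0 (i := i + 1) (by omega) (by have := Finset.mem_range.mp hi; omega)
      rw [hn] at this
      exact_mod_cast this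
    simpa using Finset.sum_le_sum this

end Lat

end Cfsg.Agent.H2.F23
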