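import Cfsg.Agent.H2.F23b
import Cfsg.Agent.H2.F23c1
import Cfsg.Agent.H2.F23d

/-!
# Rational representations of degree twenty-three: the discriminant group
-/

set_option autoImplicit false

namespace Cfsg.Agent.H2.F23

open Module Submodule

variable {V : Type*} [AddCommGroup V] [Module ℚ V] {G : Type*} [Group G]

theorem mem_D {B : LinearMap.BilinForm ℚ V} {L : Submodule ℤ V} {y : V} :
    y ∈ B.dualSubmodule L ↔ ∀ a ∈ L, ∃ k : ℤ, B y a = k := by
  simp only [LinearMap.BilinForm.mem_dualSubmodule, Submodule.mem_one, algebraMap_int_eq,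
    eq_intCast, eq_comm]

theorem mem_of_coprime {L : Submodule ℤ V} {y : V} {a b : ℤ} (hc : IsCoprime a b)
    (ha : a • y ∈ L) (hb : b • y ∈ L) : y ∈ L := by
  obtain ⟨u, v, e⟩ := hc
  rw [← one_smul ℤ y, ← e, add_smul, mul_smul, mul_smul]
  exact L.add_mem (L.smul_mem _ ha) (L.smul_mem _ hb)

namespace Min

variable {ρ : Representation ℚ G V} {B : LinearMap.BilinForm ℚ V} {L : Submodule ℤ V}
  (h : Min ρ B L)
include h

theorem fin : FiniteDimensional ℚ V := Module.finite_of_finrank_pos (by rw [h.dim]; norm_num)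

theorem fg : L.FG := by
  obtain ⟨b, rfl⟩ := h.bas
  exact fg_span (Set.finite_range b)

theorem sp : span ℚ (L : Set V) = ⊤ := by
  obtain ⟨b, rfl⟩ := h.bas
  rw [eq_top_iff, ← b.span_eq]
  exact span_mono subset_span

theorem le_D : L ≤ B.dualSubmodule L := fun a ha => mem_D.mpr (h.int a ha)

theorem fgD {M : Submodule ℤ V} (hM : M ≤ B.dualSubmodule L) : M.FG := by
  classical
  obtain ⟨b, rfl⟩ := h.bas
  rw [B.dualSubmodule_span_of_basis h.toRep.nondeg] at hM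
  exact (fg_span (Set.finite_range _)).of_le hM

theorem invD (g : G) {y : V} (hy : y ∈ B.dualSubmodule L) : ρ g y ∈ B.dualSubmodule L :=
  mem_D.mpr fun a ha => by
    rw [h.toRep.adj]
    exact mem_D.mp hy _ (h.invL _ a ha)

theorem max (S : Set V) (inv : ∀ g, ∀ y ∈ S, ρ g y ∈ S) (hD : ∀ y ∈ S, y ∈ B.dualSubmodule L)
    (hi : ∀ y ∈ S, ∀ z ∈ S, ∃ k : ℤ, B y z = k) : ∀ y ∈ S, y ∈ L := by
  let M := span ℤ (Set.range (Subtype.val : ↥((L : Set V) ∪ S) → V))
  have hM : ∀ y, y ∈ (L : Set V) ∪ S → y ∈ M := fun y hy => subset_span ⟨⟨y, hy⟩, rfl⟩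
  obtain ⟨e1, e2⟩ := h.key M 1 (fun y hy => hM y (Or.inl hy)) (h.fgD (span_le.mpr (by
    rintro _ ⟨⟨y, hy | hy⟩, rfl⟩
    exacts [h.le_D hy, hD y hy]))) (fun g a ha => by
      have : M.map ((ρ g).restrictScalars ℤ) ≤ M := by
        rw [map_span, span_le]
        rintro _ ⟨_, ⟨⟨y, hy | hy⟩, rfl⟩, rfl⟩
        exacts [hM _ (Or.inl (h.invL g y hy)), hM _ (Or.inr (inv g y hy))]
      exact this ⟨a, ha, rfl⟩) one_pos fun a ha b hb => by
    rw [one_mul]
    refine int_of_span B _ (fun z => ?_) b hb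
    rw [h.symm]
    refine int_of_span B _ (fun y => ?_) a ha
    rcases z with ⟨z, hz | hz⟩ <;> rcases y with ⟨y, hy | hy⟩
    · exact h.int z hz y hy
    · rw [h.symm]
      exact mem_D.mp (hD y hy) z hz
    · exact mem_D.mp (hD z hz) y hy
    · exact hi z hz y hy
  have e3 : L.toAddSubgroup.relIndex M.toAddSubgroup = 1 := by
    rw [one_pow] at e1
    have : L.toAddSubgroup.relIndex M.toAddSubgroup ^ 2 ≤ 1 := by exact_mod_cast e1
    have := Nat.pos_of_ne_zero e2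
    nlinarith
  exact fun y hy => AddSubgroup.relIndex_eq_one.mp e3 (hM y (Or.inr hy))

theorem ndiv {l : ℕ} (hl : l.Prime) : ∃ a ∈ L, ∃ b ∈ L, ∃ k : ℤ, B a b = k ∧ IsCoprime k l := by
  by_contra hc
  push Not at hc
  have l1 : (1 : ℚ) < l := by exact_mod_cast hl.one_lt
  have := (h.key L (l : ℚ)⁻¹ le_rfl h.fg h.invL (by positivity) fun a ha b hb => by
    obtain ⟨k, hk⟩ := h.int a ha b hb
    have := hc a ha b hb k hk
    rw [isCoprime_comm, (Nat.prime_iff_prime_int.mp hl).irreducible.coprime_iff_not_dvd,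
      not_not] at this
    obtain ⟨j, rfl⟩ := this
    exact ⟨j, by rw [hk]; push_cast; field_simp⟩).1
  rw [AddSubgroup.relIndex_self] at this
  have e : ((l : ℚ)⁻¹) ^ 23 < 1 := pow_lt_one₀ (by positivity) (inv_lt_one_of_one_lt₀ l1) (by norm_num)
  norm_num at this e
  linarith

theorem sqfree {l : ℤ} {y : V} (hy : y ∈ B.dualSubmodule L) (h2 : (l * l) • y ∈ L) : l • y ∈ L := by
  refine h.max {z | ∃ y ∈ B.dualSubmodule L, (l * l) • y ∈ L ∧ z = l • y} ?_ ?_ ?_ _
    ⟨y, hy, h2, rfl⟩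
  · rintro g _ ⟨y, hy, h2, rfl⟩
    exact ⟨ρ g y, h.invD g hy, by simpa using h.invL g _ h2, by simp⟩
  · rintro _ ⟨y, hy, -, rfl⟩
    exact smul_mem _ _ hy
  · rintro _ ⟨y, hy, -, rfl⟩ _ ⟨z, -, h2, rfl⟩
    obtain ⟨k, hk⟩ := mem_D.mp hy _ h2
    exact ⟨k, by rw [← hk]; simp; ring⟩

variable [Finite G]

theorem avg_mem {M : Submodule ℤ V} (inv : ∀ g, ∀ a ∈ M, ρ g a ∈ M) {a b y : V} (ha : a ∈ L)
    (hb : b ∈ M) (hy : y ∈ B.dualSubmodule L) : ((Nat.card G : ℚ) / 23 * B a b) • y ∈ M := by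
  have := Fintype.ofFinite G
  have := h.fin
  rw [← h.toRep.avg]
  refine sum_mem fun g _ => ?_
  obtain ⟨k, hk⟩ := mem_D.mp hy _ (h.invL g a ha)
  rw [h.symm, hk, Int.cast_smul_eq_zsmul]
  exact smul_mem _ _ (inv g b hb)

theorem dvd_card : 23 ∣ Nat.card G := by
  classical
  obtain ⟨b, hb⟩ := h.bas
  have nd := h.toRep.nondeg
  have := h.fin
  have m1 : b 0 ∈ L := hb ▸ subset_span ⟨0, rfl⟩
  have m2 : B.dualBasis nd b 0 ∈ B.dualSubmodule L := by
    rw [hb, B.dualSubmodule_span_of_basis nd]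
    exact subset_span ⟨0, rfl⟩
  have e : B (B.dualBasis nd b 0) (b 0) = 1 := by
    simp [LinearMap.BilinForm.apply_dualBasis_left]
  obtain ⟨k, hk⟩ := mem_D.mp (h.avg_mem (fun g _ => h.invD g) m1 m2 m2) _ m1
  rw [map_smul, LinearMap.smul_apply, h.symm (b 0), e] at hk
  have : (Nat.card G : ℤ) = 23 * k := by
    have : (Nat.card G : ℚ) = 23 * k := by rw [← hk]; simp only [smul_eq_mul]; ring
    exact_mod_cast this
  exact Int.natCast_dvd_natCast.mp ⟨k, this⟩

theorem mul_mem {m : ℕ} (hm : Nat.card G = 23 * m) {a b y : V} (ha : a ∈ L) (hb : b ∈ L) {k : ℤ}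
    (hk : B a b = k) (hy : y ∈ B.dualSubmodule L) : (m * k : ℤ) • y ∈ L := by
  have := h.avg_mem h.invL ha hb hy
  rwa [hm, hk, show ((23 * m : ℕ) : ℚ) / 23 * k = ((m * k : ℤ) : ℚ) by push_cast; ring,
    Int.cast_smul_eq_zsmul] at this

theorem big {l : ℕ} (hl : l.Prime) (l23 : 23 ≤ l) {y : V} (hy : y ∈ B.dualSubmodule L)
    (h2 : (l : ℤ) • y ∈ L) : y ∈ L := by
  have := h.fin
  obtain ⟨m, hm⟩ := h.dvd_card
  obtain ⟨a, ha, b, hb, k, hk, hc⟩ := h.ndiv hl
  refine mem_of_coprime (IsCoprime.mul_left ?_ hc) (h.mul_mem hm ha hb hk hy) h2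
  rw [Nat.isCoprime_iff_coprime, Nat.coprime_comm, hl.coprime_iff_not_dvd]
  intro hd
  obtain rfl : l = 23 := le_antisymm (h.toRep.prime_le hl (hm ▸ hd.mul_left 23)) l23
  exact h.toRep.not_sq (by rw [hm, pow_two]; exact Nat.mul_dvd_mul_left _ hd)

omit [Finite G] in
theorem small {x : G} (hx : x ^ 23 = 1) {l : ℕ} (hl : l.Prime) (l23 : l < 23) {y : V}
    (hy : y ∈ B.dualSubmodule L) (h2 : (l : ℤ) • y ∈ L) : y - ρ x y ∈ L := by
  let M : Submodule ℤ V := B.dualSubmodule L ⊓ L.comap ((l : ℤ) • LinearMap.id)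
  have mM : ∀ y, y ∈ M ↔ y ∈ B.dualSubmodule L ∧ (l : ℤ) • y ∈ L := fun y => Iff.rfl
  have iM : ∀ g, ∀ a ∈ M, ρ g a ∈ M := fun g a ha =>
    (mM _).mpr ⟨h.invD g ha.1, by simpa using h.invL g _ ((mM a).mp ha).2⟩
  have hi : ∀ a ∈ M, ∀ b ∈ M, ∃ k : ℤ, (l : ℚ) * B a b = k := fun a ha b hb => by
    simpa using mem_D.mp ha.1 _ ((mM b).mp hb).2
  obtain ⟨e1, e2⟩ := h.key M l (fun a ha => (mM a).mpr ⟨h.le_D ha, L.smul_mem _ ha⟩)
    (h.fgD inf_le_left) iM (by exact_mod_cast hl.pos) hi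
  let L' := L.submoduleOf M
  have ec : L.toAddSubgroup.relIndex M.toAddSubgroup = Nat.card (M ⧸ L') := rfl
  rw [ec] at e1 e2
  have : Finite (M ⧸ L') := Nat.finite_of_card_ne_zero e2
  let X0 : Module.End ℤ M := ((ρ x).restrictScalars ℤ).restrict (iM x)
  let X : Module.End ℤ (M ⧸ L') := L'.mapQ L' X0 fun a ha => h.invL x _ ha
  have hX : ∀ i (a : M), (X ^ i) (L'.mkQ a) = L'.mkQ ⟨ρ (x ^ i) a, iM _ _ a.2⟩ := fun i => by
    induction i with
    | zero => exact fun a => by simp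
    | succ n ih =>
      intro a
      rw [pow_succ, Module.End.mul_apply]
      refine (ih (X0 a)).trans (congrArg _ (Subtype.ext ?_))
      simp only [pow_succ, map_mul]
      rfl
  have hS : ∀ (s : Finset ℕ) (c : ℤ) (a : M), (∑ i ∈ s, X ^ i) (L'.mkQ a) = c • L'.mkQ a →
      ∑ i ∈ s, ρ (x ^ i) a - c • (a : V) ∈ L := fun s c a e => by
    rw [LinearMap.sum_apply, Finset.sum_congr rfl fun i _ => hX i a, ← map_sum, ← map_zsmul,
      mkQ_apply, mkQ_apply, Submodule.Quotient.eq] at e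
    simpa [L', submoduleOf] using e
  rcases abs_case (A := M ⧸ L') hl l23 (fun a => by
    obtain ⟨a, rfl⟩ := L'.mkQ_surjective a
    rw [← map_zsmul, mkQ_apply, Submodule.Quotient.mk_eq_zero]
    exact ((mM a).mp a.2).2) (by exact_mod_cast e1) X (LinearMap.ext fun a => by
      obtain ⟨a, rfl⟩ := L'.mkQ_surjective a
      rw [hX]
      simp [hx]) with e | ⟨c, hc, e⟩
  · have := hS {1} 1 ⟨y, hy, h2⟩ (by simpa using e _)
    simpa using L.neg_mem this
  · have : y ∈ L := h.max M iM (fun a ha => ha.1) (fun a ha b hb => by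
      obtain ⟨k1, h1⟩ := mem_D.mp hb.1 _ (hS _ c ⟨a, ha⟩ (e _).1)
      obtain ⟨k2, h2⟩ := mem_D.mp ha.1 _ (hS _ c ⟨b, hb⟩ (e _).1)
      obtain ⟨k3, h3⟩ := mem_D.mp ha.1 _ (hS _ 0 ⟨b, hb⟩ (by rw [(e _).2, zero_smul]))
      obtain ⟨k4, h4⟩ := hi a ha b hb
      have s : ∀ i, i ≤ 23 → B b (ρ (x ^ i) a) = B a (ρ (x ^ (23 - i)) b) := fun i hi => by
        rw [← h.inv (x ^ (23 - i)), ← Module.End.mul_apply, ← map_mul, ← pow_add,
          Nat.sub_add_cancel hi, hx, map_one, Module.End.one_apply, h.symm]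
      simp only [map_sub, map_sum, map_zsmul, zsmul_eq_mul, h.symm b a] at h1 h2 h3
      rw [Finset.sum_congr rfl fun i hi => s i (by revert i; decide)] at h1
      have h5 : (2 * c + 1) * B a b = k3 - k1 - k2 := by
        rw [← h1, ← h2, ← h3]
        norm_num [QR, Finset.sum_range_succ]
        ring
      obtain ⟨u, v, e⟩ := hc
      have e' : (u : ℚ) * (2 * c + 1) + v * l = 1 := by exact_mod_cast e
      exact ⟨u * (k3 - k1 - k2) + v * k4, by
        push_cast; linear_combination u * h5 + v * h4 - B a b * e'⟩) y ⟨hy, h2⟩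
    exact L.sub_mem this (h.invL x y this)

theorem triv {x : G} (hx : x ^ 23 = 1) {y : V} (hy : y ∈ B.dualSubmodule L) : y - ρ x y ∈ L := by
  have key : ∀ n : ℕ, n ≠ 0 → ∀ y ∈ B.dualSubmodule L, (n : ℤ) • y ∈ L → y - ρ x y ∈ L := by
    intro n
    induction n using Nat.strong_induction_on with
    | _ n ih =>
      intro n0 y hy hn
      by_cases n1 : n = 1
      · rw [n1, Nat.cast_one, one_smul] at hn
        exact L.sub_mem hn (h.invL x y hn)
      obtain ⟨l, hl, r, rfl⟩ := Nat.exists_prime_and_dvd n1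
      have r0 : r ≠ 0 := fun e => n0 (by rw [e, mul_zero])
      have lt : r < l * r := by have := hl.one_lt; have := Nat.pos_of_ne_zero r0; nlinarith
      by_cases hd : l ∣ r
      · obtain ⟨s, rfl⟩ := hd
        refine ih _ lt r0 y hy ?_
        have := h.sqfree (l := l) (smul_mem _ (s : ℤ) hy) (by
          rw [smul_smul, mul_assoc]; exact_mod_cast hn)
        rw [smul_smul] at this
        exact_mod_cast this
      · have e1 := ih _ lt r0 _ (smul_mem _ (l : ℤ) hy) (by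
          rw [smul_smul, mul_comm]; exact_mod_cast hn)
        have e3 : (l : ℤ) • (r : ℤ) • y ∈ L := by rw [smul_smul]; exact_mod_cast hn
        have e2 : (r : ℤ) • y - ρ x ((r : ℤ) • y) ∈ L := by
          rcases lt_or_ge l 23 with l23 | l23
          · exact h.small hx hl l23 (smul_mem _ (r : ℤ) hy) e3
          · have := h.big hl l23 (smul_mem _ (r : ℤ) hy) e3
            exact L.sub_mem this (h.invL x _ this)
        rw [map_zsmul, ← smul_sub] at e1 e2
        exact mem_of_coprime (Nat.isCoprime_iff_coprime.mpr (hl.coprime_iff_not_dvd.mpr hd)) e1 e2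
  obtain ⟨m, hm⟩ := h.dvd_card
  obtain ⟨a, ha, b, hb, k, hk, hc⟩ := h.ndiv Nat.prime_two
  have m0 : m ≠ 0 := fun e => Nat.card_pos.ne' (by rw [hm, e])
  have k0 : k ≠ 0 := by rintro rfl; norm_num at hc
  refine key (m * k).natAbs (by simp [m0, k0]) y hy ?_
  have := h.mul_mem hm ha hb hk hy
  rcases Int.natAbs_eq (m * k) with e | e
  · rwa [← e]
  · rw [← neg_neg ((m * k : ℤ).natAbs : ℤ), ← e, neg_smul]
    exact L.neg_mem this

theorem exists_lat : ∃ x w d, Lat ρ B L x w d := by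
  have := h.fin
  have : Fact (Nat.Prime 23) := ⟨by norm_num⟩
  obtain ⟨x, hx⟩ := exists_prime_orderOf_dvd_card' 23 h.dvd_card
  have x23 : x ^ 23 = 1 := by rw [← hx, pow_orderOf_eq_one]
  obtain ⟨v, v0, xv, hv⟩ := h.toRep.fix x23 (fun e => by rw [e, orderOf_one] at hx; omega)
  have hN : ∀ {M : Submodule ℤ V}, (∀ g, ∀ a ∈ M, ρ g a ∈ M) → ∀ a ∈ M,
      (23 * B v a / B v v) • v ∈ M := fun inv a ha => by
    rw [← h.toRep.sum_fix x23 v0 xv hv]
    exact sum_mem fun i _ => inv _ a ha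
  have vv := h.pos v v0
  have ex : ∀ z, z ≠ 0 → ∃ a ∈ L, B z a ≠ 0 := fun z z0 => by
    by_contra hc
    push Not at hc
    have : span ℚ (L : Set V) ≤ LinearMap.ker (B z) := span_le.mpr hc
    exact (h.pos z z0).ne' (this (h.sp ▸ trivial : z ∈ span ℚ (L : Set V)))
  obtain ⟨a0, ha0, hb0⟩ := ex v v0
  set c0 := 23 * B v a0 / B v v with hc0
  have c00 : c0 ≠ 0 := by positivity
  have m0 : c0 • v ∈ L := hN h.invL a0 ha0
  let J : AddSubgroup ℤ := (L.toAddSubgroup.map (B (c0 • v)).toAddMonoidHom).comap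
    (Int.castAddHom ℚ)
  have mJ : ∀ k, k ∈ J ↔ ∃ a ∈ L, B (c0 • v) a = k := fun k => Iff.rfl
  obtain ⟨r, hr⟩ := Int.subgroup_cyclic J
  obtain ⟨l, hl, l1⟩ := (mJ r).mp (hr ▸ AddSubgroup.mem_closure_singleton_self r)
  have dv : ∀ a ∈ L, ∃ k : ℤ, B (c0 • v) a = k * r := fun a ha => by
    obtain ⟨k, hk⟩ := h.int _ m0 a ha
    obtain ⟨n, hn⟩ := AddSubgroup.mem_closure_singleton.mp (hr ▸ (mJ k).mpr ⟨a, ha, hk⟩)
    exact ⟨n, by rw [hk, ← hn]; simp⟩
  have r0 : (r : ℚ) ≠ 0 := fun e => by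
    obtain ⟨k, hk⟩ := dv a0 ha0
    rw [e] at hk
    simp [c00, hb0] at hk
  set w := (c0 / r) • v with hw
  have w0 : w ≠ 0 := smul_ne_zero (div_ne_zero c00 r0) v0
  have wa : ∀ a, B a w = B (c0 • v) a / r := fun a => by
    rw [h.symm, hw]
    simp only [map_smul, LinearMap.smul_apply, smul_eq_mul]
    ring
  have wl : B l w = 1 := by rw [wa, l1, div_self r0]
  have wint : ∀ a ∈ L, ∃ k : ℤ, B a w = k := fun a ha => by
    obtain ⟨k, hk⟩ := dv a ha
    exact ⟨k, by rw [wa, hk, mul_div_cancel_right₀ _ r0]⟩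
  have wD : w ∈ B.dualSubmodule L := mem_D.mpr fun a ha => by rw [h.symm]; exact wint a ha
  have xw : ρ x w = w := by rw [hw, map_smul, xv]
  have fixw : ∀ y, ρ x y = y → ∃ c : ℚ, y = c • w := fun y hy => by
    obtain ⟨c, rfl⟩ := hv y hy
    exact ⟨c * r / c0, by rw [hw, smul_smul]; congr 1; field_simp⟩
  have cD : ∀ c : ℚ, c • w ∈ B.dualSubmodule L → ∃ k : ℤ, c = k := fun c hc => by
    obtain ⟨k, hk⟩ := mem_D.mp hc l hl
    exact ⟨k, by simpa [h.symm w l, wl] using hk⟩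
  have ww := h.pos w w0
  have sw := h.toRep.sum_fix x23 w0 xw fixw
  clear_value w
  let K : AddSubgroup ℤ := L.toAddSubgroup.comap (zmultiplesHom V w)
  have mK : ∀ k : ℤ, k ∈ K ↔ k • w ∈ L := fun k => Iff.rfl
  obtain ⟨d', hd⟩ := Int.subgroup_cyclic K
  have mK' : ∀ k : ℤ, k • w ∈ L ↔ (d'.natAbs : ℤ) ∣ k := fun k => by
    rw [← mK, hd, AddSubgroup.mem_closure_singleton, Int.natAbs_dvd]
    exact ⟨fun ⟨n, hn⟩ => ⟨n, by rw [← hn]; simp [mul_comm]⟩,
      fun ⟨n, hn⟩ => ⟨n, by rw [hn]; simp [mul_comm]⟩⟩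
  generalize d'.natAbs = d at mK'
  have dw : ∀ c : ℚ, c • w ∈ L ↔ ∃ k : ℤ, c = d * k := fun c => ⟨fun hc => by
    obtain ⟨k, rfl⟩ := cD c (h.le_D hc)
    rw [Int.cast_smul_eq_zsmul, mK'] at hc
    obtain ⟨j, rfl⟩ := hc
    exact ⟨j, by simp⟩, fun ⟨k, hk⟩ => by
      rw [hk, show (d : ℚ) * k = ((d * k : ℤ) : ℚ) by simp, Int.cast_smul_eq_zsmul, mK']
      exact dvd_mul_right _ _⟩
  obtain ⟨k1, hk1⟩ := (dw (23 * B w l / B w w)).mp (sw l ▸ sum_mem fun i _ => h.invL _ l hl)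
  rw [h.symm w l, wl, div_eq_iff ww.ne'] at hk1
  have d0 : d ≠ 0 := by rintro rfl; norm_num at hk1
  have red : ∀ p e : ℕ, 1 < p → d = p * e → (e : ℤ) • w ∉ L := fun p e hp he hc => by
    have := Nat.le_of_dvd (Nat.pos_of_ne_zero fun e0 => d0 (by rw [he, e0, mul_zero]))
      (Int.natCast_dvd_natCast.mp ((mK' _).mp hc))
    have := Nat.pos_of_ne_zero d0
    nlinarith
  have nd : ¬ 23 ∣ d := fun ⟨e, he⟩ => red 23 e (by norm_num) he
    (h.big (l := 23) (by norm_num) le_rfl (smul_mem _ _ wD) (by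
      rw [smul_smul, mK', he]; simp))
  have sqf : Squarefree d := Nat.squarefree_iff_prime_squarefree.mpr fun p hp ⟨e, he⟩ =>
    red p (p * e) hp.one_lt (by rw [he, mul_assoc]) (by
      have := h.sqfree (l := p) (smul_mem _ (e : ℤ) wD) (by rw [smul_smul, mK', he]; simp)
      rw [smul_smul] at this
      exact_mod_cast this)
  have dual : ∀ y, (∀ a ∈ L, ∃ k : ℤ, B y a = k) → ∃ k : ℤ, y - (k : ℚ) • w ∈ L := fun y hy => by
    have hy := mem_D.mpr hy
    obtain ⟨c, hc⟩ := cD (23 * B w y / B w w) (sw y ▸ sum_mem fun i _ => h.invD _ hy)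
    have e1 : (23 : ℤ) • y - c • w ∈ L := by
      have : ∑ i ∈ Finset.range 23, (y - ρ (x ^ i) y) ∈ L := sum_mem fun i _ =>
        h.triv (by rw [← pow_mul, mul_comm, pow_mul, x23, one_pow]) hy
      rwa [Finset.sum_sub_distrib, sw, hc, Finset.sum_const, Finset.card_range,
        Int.cast_smul_eq_zsmul, ← natCast_zsmul] at this
    obtain ⟨s, t, e⟩ : IsCoprime (23 : ℤ) d := by
      exact_mod_cast Nat.isCoprime_iff_coprime.mpr
        ((Nat.Prime.coprime_iff_not_dvd (by norm_num)).mpr nd)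
    refine ⟨c * s, ?_⟩
    rw [Int.cast_smul_eq_zsmul]
    refine h.big (l := 23) (by norm_num) le_rfl (sub_mem hy (smul_mem _ _ wD)) ?_
    have := L.add_mem e1 ((mK' (d * (c * t))).mpr (dvd_mul_right _ _))
    convert this using 1
    have e' : d * (c * t) = c - 23 * (c * s) := by linear_combination c * e
    rw [e']
    module
  have dL : (d : ℚ) • w ∈ L := (dw d).mpr ⟨1, by simp⟩
  obtain ⟨e, he⟩ := wint _ dL
  rw [map_smul, LinearMap.smul_apply, smul_eq_mul] at he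
  have dp : (0 : ℚ) < d := by exact_mod_cast Nat.pos_of_ne_zero d0
  have e0 : 0 < e := by
    have : (0 : ℚ) < e := by rw [← he]; positivity
    exact_mod_cast this
  have e1 : e ∣ 23 := ⟨k1, by
    have : (23 : ℚ) = e * k1 := by rw [← he]; linarith
    exact_mod_cast this⟩
  have e2 : e = 23 := by
    obtain ⟨e, rfl⟩ := Int.eq_ofNat_of_zero_le e0.le
    rcases (Nat.dvd_prime (by norm_num : Nat.Prime 23)).mp (Int.natCast_dvd_natCast.mp e1)
      with rfl | rfl
    swap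
    · rfl
    exfalso
    obtain ⟨g, hg⟩ := h.toRep.no_line w0
    obtain ⟨k, hk⟩ := dual _ (mem_D.mp (h.invD g wD))
    obtain ⟨j, hj⟩ := wint _ hk
    have ha := L.sub_mem hk ((dw (d * j)).mpr ⟨j, rfl⟩)
    set a := ρ g w - (k : ℚ) • w - ((d : ℚ) * j) • w with hA
    have aw : B a w = 0 := by
      rw [hA, map_sub, LinearMap.sub_apply, hj]
      simp only [map_smul, LinearMap.smul_apply, smul_eq_mul]
      push_cast at he
      linear_combination (-j) * he
    have ea : ρ g w = a + ((k : ℚ) + d * j) • w := by rw [hA]; module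
    have a0 : a ≠ 0 := fun e => hg _ (by rw [ea, e, zero_add])
    have n1 := h.inv g w w
    rw [ea] at n1
    simp only [map_add, map_smul, LinearMap.add_apply, LinearMap.smul_apply, smul_eq_mul, aw,
      h.symm w a] at n1
    have n2 := congrArg (B a) (sw a)
    rw [map_sum, sum_sym (fun i => B a (ρ (x ^ i) a)) fun i hi => by
      rw [← h.inv (x ^ i), ← Module.End.mul_apply, ← map_mul, ← pow_add, Nat.add_sub_cancel' hi,
        x23, map_one, Module.End.one_apply, h.symm]] at n2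
    obtain ⟨n, hn⟩ := exists_int_sum (Finset.range 11) (fun i => B a (ρ (x ^ (i + 1)) a))
      fun i _ => h.int a ha _ (h.invL _ a ha)
    simp only [hn, pow_zero, map_one, Module.End.one_apply, map_smul, aw, smul_zero] at n2
    have p1 := h.pos a a0
    have n0 : n < 0 := by
      have : (n : ℚ) < 0 := by linarith
      exact_mod_cast this
    have n3 : (n : ℚ) ≤ -1 := by exact_mod_cast (by omega : n ≤ -1)
    have d1 : (1 : ℚ) ≤ d := by exact_mod_cast Nat.pos_of_ne_zero d0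
    push_cast at he
    nlinarith [mul_nonneg (mul_self_nonneg ((k : ℚ) + d * j)) ww.le]
  exact ⟨x, w, d, h.toRep, h.fg, h.sp, h.invL, h.int, x23, w0, xw, fixw, wint, dual, dw,
    by rw [he, e2]; rfl, ⟨l, hl, wl⟩, sqf, nd⟩

end Min

end Cfsg.Agent.H2.F23
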