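import Cfsg.Agent.H2.F23d

/-!
# Rational representations of degree twenty-three: gluing to rank twenty-four
-/

set_option autoImplicit false

namespace Cfsg.Agent.H2.F23

open Module

variable {V : Type*} [AddCommGroup V] [Module ℚ V] {G : Type*} [Group G]

/-- The form on the extended space. -/
def BU (B : LinearMap.BilinForm ℚ V) (D : ℚ) : LinearMap.BilinForm ℚ (V × ℚ) :=
  B.compl₁₂ (LinearMap.fst ℚ V ℚ) (LinearMap.fst ℚ V ℚ) +
    D • (LinearMap.mul ℚ ℚ).compl₁₂ (LinearMap.snd ℚ V ℚ) (LinearMap.snd ℚ V ℚ)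

theorem BU_apply (B : LinearMap.BilinForm ℚ V) (D : ℚ) (a b : V × ℚ) :
    BU B D a b = B a.1 b.1 + D * (a.2 * b.2) := rfl

/-- The glued lattice. -/
def NN (B : LinearMap.BilinForm ℚ V) (L : Submodule ℤ V) (w : V) (u t q : V × ℚ) :
    Submodule ℤ (V × ℚ) where
  carrier := {n | ∃ a ∈ L, B a w = 0 ∧ ∃ i j k : ℤ,
    n = (a, 0) + (i : ℚ) • u + (j : ℚ) • t + (k : ℚ) • q}
  zero_mem' := ⟨0, L.zero_mem, by simp, 0, 0, 0, by simp [Prod.mk_zero_zero]⟩
  add_mem' := by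
    rintro _ _ ⟨a, ha, a0, i, j, k, rfl⟩ ⟨b, hb, b0, i', j', k', rfl⟩
    refine ⟨a + b, L.add_mem ha hb, by simp [a0, b0], i + i', j + j', k + k', ?_⟩
    rw [show ((a + b, 0) : V × ℚ) = (a, 0) + (b, 0) by simp]
    push_cast
    module
  smul_mem' := by
    rintro c _ ⟨a, ha, a0, i, j, k, rfl⟩
    refine ⟨c • a, L.smul_mem c ha, by simp [a0], c * i, c * j, c * k, ?_⟩
    rw [show ((c • a, 0) : V × ℚ) = c • (a, 0) by simp]
    push_cast
    module

theorem fg_NN {B : LinearMap.BilinForm ℚ V} {L : Submodule ℤ V} (fg : L.FG) (w : V)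
    (u t q : V × ℚ) : (NN B L w u t q).FG := by
  refine ((fg.map (LinearMap.inl ℤ V ℚ)).sup
    (Submodule.fg_span (Set.toFinite {u, t, q}))).of_le ?_
  rintro _ ⟨a, ha, -, i, j, k, rfl⟩
  simp only [Int.cast_smul_eq_zsmul, add_assoc]
  refine Submodule.add_mem_sup ⟨a, ha, rfl⟩ (add_mem ?_ (add_mem ?_ ?_)) <;>
    exact Submodule.smul_mem _ _ (Submodule.subset_span (by simp))

theorem no_two (A B : ℤ) : 3 * A ^ 2 - A * B + 2 * B ^ 2 ≠ 23 ∧
    3 * A ^ 2 - A * B + 2 * B ^ 2 ≠ 1 := by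
  have key : 3 * A ^ 2 - A * B + 2 * B ^ 2 ≤ 23 → (-3 ≤ A ∧ A ≤ 3) ∧ (-4 ≤ B ∧ B ≤ 4) := fun h =>
    ⟨⟨by nlinarith [sq_nonneg (A - 4 * B)], by nlinarith [sq_nonneg (A - 4 * B)]⟩,
      ⟨by nlinarith [sq_nonneg (6 * A - B)], by nlinarith [sq_nonneg (6 * A - B)]⟩⟩
  constructor <;> intro h <;> obtain ⟨⟨_, _⟩, _, _⟩ := key (by omega) <;>
    interval_cases A <;> interval_cases B <;> omega

/-- Gluing data. -/
structure Glue (B : LinearMap.BilinForm ℚ V) (L : Submodule ℤ V) (w l : V)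
    (D u1 u2 t1 t2 q2 : ℚ) : Prop where
  lL : l ∈ L
  lw : B l w = 1
  D0 : 0 < D
  uu : u1 * u1 * B w w + D * (u2 * u2) = 4
  ut : u1 * t1 * B w w + D * (u2 * t2) = 1
  tt : t1 * t1 * B w w + D * (t2 * t2) = 6
  qut : ∃ a b : ℤ, u1 + D * (q2 * u2) = a ∧ t1 + D * (q2 * t2) = b ∧ ¬ 23 ∣ a - 4 * b
  qq : ∃ k : ℤ, B l l + D * (q2 * q2) = 2 * k

namespace Glue

variable {ρ : Representation ℚ G V} {B : LinearMap.BilinForm ℚ V} {L : Submodule ℤ V}
  {x : G} {w l : V} {d : ℕ} {D u1 u2 t1 t2 q2 : ℚ} (c : Glue B L w l D u1 u2 t1 t2 q2)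
include c

theorem span (a e : ℚ) : ∃ α β : ℚ, ((a • w, e) : V × ℚ) = α • (u1 • w, u2) + β • (t1 • w, t2) := by
  have h0 : u1 * t2 - u2 * t1 ≠ 0 := fun h => by
    have : B w w * D * (u1 * t2 - u2 * t1) ^ 2 = 23 := by
      linear_combination (t1 * t1 * B w w + D * (t2 * t2)) * c.uu + 4 * c.tt -
        (u1 * t1 * B w w + D * (u2 * t2) + 1) * c.ut
    rw [h] at this
    norm_num at this
  have h1 := mul_inv_cancel₀ h0
  refine ⟨(a * t2 - e * t1) * (u1 * t2 - u2 * t1)⁻¹, (e * u1 - a * u2) * (u1 * t2 - u2 * t1)⁻¹,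
    Prod.ext ?_ ?_⟩
  · simp only [Prod.fst_add, Prod.smul_fst, smul_smul, ← add_smul]
    congr 1
    linear_combination (-a) * h1
  · simp only [Prod.snd_add, Prod.smul_snd, smul_eq_mul]
    linear_combination (-e) * h1

variable (h : Lat ρ B L x w d)
include h

theorem int : ∀ m ∈ NN B L w (u1 • w, u2) (t1 • w, t2) (l, q2),
    ∀ n ∈ NN B L w (u1 • w, u2) (t1 • w, t2) (l, q2), ∃ k : ℤ, BU B D m n = k := by
  rintro _ ⟨a, ha, a0, i, j, k, rfl⟩ _ ⟨b, hb, b0, i', j', k', rfl⟩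
  obtain ⟨A, A', e1, e2, -⟩ := c.qut
  obtain ⟨r, hr⟩ := c.qq
  obtain ⟨s1, h1⟩ := h.int a ha b hb
  obtain ⟨s2, h2⟩ := h.int a ha l c.lL
  obtain ⟨s3, h3⟩ := h.int l c.lL b hb
  refine ⟨s1 + k' * s2 + k * s3 + 4 * i * i' + (i * j' + j * i') + 6 * j * j' +
    (i * k' + k * i') * A + (j * k' + k * j') * A' + 2 * k * k' * r, ?_⟩
  simp only [BU_apply, Prod.fst_add, Prod.snd_add, Prod.smul_fst, Prod.smul_snd, map_add,
    map_smul, LinearMap.add_apply, LinearMap.smul_apply, smul_eq_mul, a0, h.symm w b, b0,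
    h.symm w l, c.lw, h1, h2, h3]
  push_cast
  linear_combination (i * i') * c.uu + (i * j' + j * i') * c.ut + (j * j') * c.tt +
    (i * k' + k * i') * e1 + (j * k' + k * j') * e2 + (k * k') * hr

theorem ev : ∀ n ∈ NN B L w (u1 • w, u2) (t1 • w, t2) (l, q2), ∃ k : ℤ, BU B D n n = 2 * k := by
  rintro _ ⟨a, ha, a0, i, j, k, rfl⟩
  obtain ⟨A, A', e1, e2, -⟩ := c.qut
  obtain ⟨r, hr⟩ := c.qq
  obtain ⟨s1, h1⟩ := h.even0 ha a0
  obtain ⟨s2, h2⟩ := h.int a ha l c.lL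
  refine ⟨s1 + k * s2 + 2 * i * i + i * j + 3 * j * j + i * k * A + j * k * A' + k * k * r, ?_⟩
  simp only [BU_apply, Prod.fst_add, Prod.snd_add, Prod.smul_fst, Prod.smul_snd, map_add,
    map_smul, LinearMap.add_apply, LinearMap.smul_apply, smul_eq_mul, a0, h.symm w a,
    h.symm w l, c.lw, h1, h2, h.symm l a]
  push_cast
  linear_combination (i * i) * c.uu + (2 * i * j) * c.ut + (j * j) * c.tt +
    (2 * i * k) * e1 + (2 * j * k) * e2 + (k * k) * hr

omit c h in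
theorem mu (u t q : V × ℚ) : u ∈ NN B L w u t q := ⟨0, L.zero_mem, by simp, 1, 0, 0, by simp⟩

omit c h in
theorem mt (u t q : V × ℚ) : t ∈ NN B L w u t q := ⟨0, L.zero_mem, by simp, 0, 1, 0, by simp⟩

omit c h in
theorem mq (u t q : V × ℚ) : q ∈ NN B L w u t q := ⟨0, L.zero_mem, by simp, 0, 0, 1, by simp⟩

omit c h in
theorem ma (u t q : V × ℚ) {a : V} (ha : a ∈ L) (a0 : B a w = 0) : (a, 0) ∈ NN B L w u t q :=
  ⟨a, ha, a0, 0, 0, 0, by simp⟩

theorem proj (n : V × ℚ) : BU B D n n = B (n.1 - (d * B n.1 w / 23) • w)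
    (n.1 - (d * B n.1 w / 23) • w) + (6 * BU B D n (u1 • w, u2) ^ 2 -
      2 * BU B D n (u1 • w, u2) * BU B D n (t1 • w, t2) + 4 * BU B D n (t1 • w, t2) ^ 2) / 23 := by
  obtain ⟨α, β, e⟩ := c.span (d * B n.1 w / 23) n.2
  have e1 := congrArg (fun z => B z.1 w) e
  have e2 := congrArg Prod.snd e
  simp only [Prod.fst_add, Prod.smul_fst, map_add, map_smul, LinearMap.add_apply,
    LinearMap.smul_apply, smul_eq_mul, Prod.snd_add, Prod.smul_snd] at e1 e2
  have e3 : B n.1 w = (α * u1 + β * t1) * B w w := by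
    linear_combination e1 - (B n.1 w / 23) * h.ww
  have f1 : BU B D n (u1 • w, u2) = 4 * α + β := by
    simp only [BU_apply, map_smul, smul_eq_mul]
    rw [e3, e2]
    linear_combination α * c.uu + β * c.ut
  have f2 : BU B D n (t1 • w, t2) = α + 6 * β := by
    simp only [BU_apply, map_smul, smul_eq_mul]
    rw [e3, e2]
    linear_combination α * c.ut + β * c.tt
  rw [f1, f2, h.norm_proj, BU_apply, e3, e2]
  linear_combination (α * α) * c.uu + (2 * α * β) * c.ut + (β * β) * c.tt +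
    ((α * u1 + β * t1) ^ 2 * B w w / 23) * h.ww

theorem pp {n : V × ℚ} (hn : n ∈ NN B L w (u1 • w, u2) (t1 • w, t2) (l, q2)) :
    PP B L w (n.1 - (d * B n.1 w / 23) • w) := h.PP_proj fun a ha a0 => by
  simpa [BU_apply] using c.int h n hn _ (ma _ _ _ ha a0)

theorem mn (hn : NonA B L w) : ∀ n ∈ NN B L w (u1 • w, u2) (t1 • w, t2) (l, q2), n ≠ 0 →
    4 ≤ BU B D n n := fun n m n0 => by
  obtain ⟨k, hk⟩ := c.ev h n m
  obtain ⟨A, hA⟩ := c.int h n m _ (mu _ _ _)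
  obtain ⟨A', hA'⟩ := c.int h n m _ (mt _ _ _)
  have e := c.proj h n
  have p := c.pp h m
  rw [hA, hA', hk] at e
  have k0 : 0 < k := by
    have : 0 < BU B D n n := by
      rw [BU_apply]
      by_cases e1 : n.1 = 0
      · have : n.2 ≠ 0 := fun e2 => n0 (Prod.ext e1 e2)
        have := mul_pos c.D0 (mul_self_pos.mpr this)
        simpa [e1] using this
      · have := h.pos _ e1
        have := mul_nonneg c.D0.le (mul_self_nonneg n.2)
        linarith
    rw [hk] at this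
    have : (0 : ℚ) < k := by linarith
    exact_mod_cast this
  have k1 : k ≠ 1 := by
    rintro rfl
    set y := n.1 - (d * B n.1 w / 23) • w
    by_cases y0 : y = 0
    · refine (no_two A A').1 ?_
      have : (3 * A ^ 2 - A * A' + 2 * A' ^ 2 : ℚ) = 23 := by
        rw [y0] at e
        simp only [map_zero] at e
        push_cast at e
        linarith
      exact_mod_cast this
    · have := hn y p y0 (by
        push_cast at e
        nlinarith [sq_nonneg ((A : ℚ) - A'), sq_nonneg (A : ℚ), sq_nonneg (A' : ℚ)])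
      refine (no_two A A').2 ?_
      have : (3 * A ^ 2 - A * A' + 2 * A' ^ 2 : ℚ) = 1 := by
        push_cast at e
        linarith
      exact_mod_cast this
  have : (2 : ℚ) ≤ k := by exact_mod_cast (by omega : 2 ≤ k)
  linarith

theorem sd (y : V × ℚ)
    (hy : ∀ n ∈ NN B L w (u1 • w, u2) (t1 • w, t2) (l, q2), ∃ k : ℤ, BU B D y n = k) :
    y ∈ NN B L w (u1 • w, u2) (t1 • w, t2) (l, q2) := by
  obtain ⟨k, hk⟩ := h.PP_add (h.PP_proj (y := y.1) fun a ha a0 => by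
    simpa [BU_apply] using hy _ (ma _ _ _ ha a0))
  set a := y.1 - (d * B y.1 w / 23) • w + ((k : ℚ) * d / 23) • w with ha
  have aw : B a w = k := by
    simp only [ha, map_add, map_sub, map_smul, LinearMap.add_apply, LinearMap.sub_apply,
      LinearMap.smul_apply, smul_eq_mul]
    linear_combination ((k - B y.1 w) / 23) * h.ww
  have m1 : (a - (k : ℚ) • l, (0 : ℚ)) + (k : ℚ) • (l, q2) ∈
      NN B L w (u1 • w, u2) (t1 • w, t2) (l, q2) :=
    ⟨a - (k : ℚ) • l, L.sub_mem hk (by rw [Int.cast_smul_eq_zsmul]; exact L.smul_mem _ c.lL),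
      by simp [aw, c.lw], 0, 0, k, by simp⟩
  obtain ⟨α, β, e⟩ := c.span (d * B y.1 w / 23 - (k : ℚ) * d / 23) (y.2 - k * q2)
  have ey : y = (a - (k : ℚ) • l, (0 : ℚ)) + (k : ℚ) • (l, q2) +
      (α • (u1 • w, u2) + β • (t1 • w, t2)) := by
    rw [← e]
    refine Prod.ext ?_ (by simp)
    simp only [ha, Prod.fst_add, Prod.smul_fst]
    module
  have hz : ∀ n ∈ NN B L w (u1 • w, u2) (t1 • w, t2) (l, q2),
      ∃ k : ℤ, BU B D (α • (u1 • w, u2) + β • (t1 • w, t2)) n = k := fun n hn => by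
    obtain ⟨s, hs⟩ := hy n hn
    obtain ⟨r, hr⟩ := c.int h _ m1 n hn
    rw [ey, map_add, LinearMap.add_apply, hr] at hs
    exact ⟨s - r, by push_cast; linarith⟩
  obtain ⟨s1, h1⟩ := hz _ (mu _ _ _)
  obtain ⟨s2, h2⟩ := hz _ (mt _ _ _)
  obtain ⟨s3, h3⟩ := hz _ (mq _ _ _)
  obtain ⟨A, A', e1, e2, e3⟩ := c.qut
  simp only [BU_apply, Prod.fst_add, Prod.snd_add, Prod.smul_fst, Prod.smul_snd, map_add,
    map_smul, LinearMap.add_apply, LinearMap.smul_apply, smul_eq_mul, h.symm w l, c.lw]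
    at h1 h2 h3
  have f1 : 4 * α + β = s1 := by linear_combination h1 - α * c.uu - β * c.ut
  have f2 : α + 6 * β = s2 := by linear_combination h2 - α * c.ut - β * c.tt
  have f3 : α * A + β * A' = s3 := by linear_combination h3 - α * e1 - β * e2
  have f4 : (6 * s1 - s2) * (A - 4 * A') = 23 * (s3 - s1 * A') := by
    have : ((6 * s1 - s2) * (A - 4 * A') : ℚ) = 23 * (s3 - s1 * A') := by
      rw [← f1, ← f2, ← f3]
      ring
    exact_mod_cast this
  obtain ⟨r, hr⟩ := ((Int.prime_iff_natAbs_prime.mpr (by norm_num) : Prime (23 : ℤ)).dvd_or_dvd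
    (Dvd.intro _ f4.symm)).resolve_right e3
  have hr' : (6 * s1 - s2 : ℚ) = 23 * r := by exact_mod_cast hr
  have ea : α = r := by linarith
  have eb : β = ((s1 - 4 * r : ℤ) : ℚ) := by push_cast; linarith
  rw [ey, ea, eb, Int.cast_smul_eq_zsmul ℚ r, Int.cast_smul_eq_zsmul ℚ (s1 - 4 * r)]
  exact add_mem m1 (add_mem (Submodule.smul_mem _ _ (mu _ _ _)) (Submodule.smul_mem _ _ (mt _ _ _)))

theorem sp : Submodule.span ℚ (NN B L w (u1 • w, u2) (t1 • w, t2) (l, q2) : Set (V × ℚ)) = ⊤ := by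
  set S := Submodule.span ℚ (NN B L w (u1 • w, u2) (t1 • w, t2) (l, q2) : Set (V × ℚ))
  have e0 : ∀ e : ℚ, ((0, e) : V × ℚ) ∈ S := fun e => by
    obtain ⟨α, β, he⟩ := c.span 0 e
    rw [zero_smul] at he
    rw [he]
    exact add_mem (S.smul_mem _ (Submodule.subset_span (mu _ _ _)))
      (S.smul_mem _ (Submodule.subset_span (mt _ _ _)))
  have e1 : Submodule.span ℚ (L : Set V) ≤ S.comap (LinearMap.inl ℚ V ℚ) :=
    Submodule.span_le.mpr fun a ha => by
      obtain ⟨k, hk⟩ := h.wint a ha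
      have m1 : (a - (k : ℚ) • l, (0 : ℚ)) + (k : ℚ) • (l, q2) ∈
          NN B L w (u1 • w, u2) (t1 • w, t2) (l, q2) :=
        ⟨a - (k : ℚ) • l, L.sub_mem ha (by rw [Int.cast_smul_eq_zsmul]; exact L.smul_mem _ c.lL),
          by simp [hk, c.lw], 0, 0, k, by simp⟩
      have := S.sub_mem (Submodule.subset_span m1) (e0 (k * q2))
      simpa using this
  rw [eq_top_iff]
  rintro ⟨a, e⟩ -
  have := S.add_mem (e1 (h.sp ▸ trivial : a ∈ Submodule.span ℚ (L : Set V))) (e0 e)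
  simpa using this

theorem XN : ∀ n ∈ NN B L w (u1 • w, u2) (t1 • w, t2) (l, q2),
    (ρ x).prodMap LinearMap.id n ∈ NN B L w (u1 • w, u2) (t1 • w, t2) (l, q2) := by
  rintro _ ⟨a, ha, a0, i, j, k, rfl⟩
  have e := h.B_xi_w 1
  rw [pow_one] at e
  refine ⟨ρ x a + (k : ℚ) • (ρ x l - l), L.add_mem (h.invL x a ha) (by
    rw [Int.cast_smul_eq_zsmul]
    exact L.smul_mem _ (L.sub_mem (h.invL x l c.lL) c.lL)), by simp [e, a0], i, j, k,
    Prod.ext ?_ (by simp)⟩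
  simp only [map_add, map_smul, LinearMap.prodMap_apply, h.xw, Prod.fst_add, Prod.smul_fst]
  module

theorem hf (y : V × ℚ) (hy : (ρ x).prodMap LinearMap.id y = y) :
    ∃ a b : ℚ, y = a • (u1 • w, u2) + b • (t1 • w, t2) := by
  obtain ⟨r, hr⟩ := h.fixw y.1 (congrArg Prod.fst hy)
  obtain ⟨α, β, e⟩ := c.span r y.2
  exact ⟨α, β, by rw [← e, ← hr]⟩

end Glue

end Cfsg.Agent.H2.F23
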