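import Cfsg.Agent.H2.F23g
import Cfsg.Agent.H4.LeechId

/-!
# Rational representations of degree twenty-three: the Conway groups
-/

set_option autoImplicit false

namespace Cfsg.Agent.H2.F23

open Module

variable {V : Type*} [AddCommGroup V] [Module ℚ V] {G : Type*} [Group G]

theorem exists_sign (ρ : Representation ℚ G V) (Λ : Submodule ℤ V) (z : V)
    (inv : ∀ g, ∀ a ∈ Λ, ρ g a ∈ Λ) (hz : ∀ g, ρ g z - z ∈ Λ ∨ ρ g z + z ∈ Λ) (h2 : z + z ∉ Λ) :
    ∃ ε : G →* ℤˣ, ∀ g, (ε g : ℤ) • ρ g z - z ∈ Λ := by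
  have ex : ∀ g, ∃ e : ℤˣ, (e : ℤ) • ρ g z - z ∈ Λ := fun g => by
    rcases hz g with e | e
    · exact ⟨1, by simpa using e⟩
    · exact ⟨-1, by simpa [sub_eq_add_neg, add_comm] using Λ.neg_mem e⟩
  choose ε hε using ex
  have un : ∀ g (e e' : ℤˣ), (e : ℤ) • ρ g z - z ∈ Λ → (e' : ℤ) • ρ g z - z ∈ Λ → e = e' :=
    fun g e e' h1 h3 => by
    by_contra hc
    have : e' = -e := by
      rcases Int.units_eq_one_or e with rfl | rfl <;> rcases Int.units_eq_one_or e' with rfl | rfl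
        <;> simp_all
    rw [this] at h3
    refine h2 ?_
    convert Λ.neg_mem (Λ.add_mem h1 h3) using 1
    simp only [Units.val_neg]
    module
  refine ⟨MonoidHom.mk' ε fun g k => un (g * k) _ _ (hε _) ?_, hε⟩
  convert Λ.add_mem (Λ.smul_mem (ε g : ℤ) (inv g _ (hε k))) (hε g) using 1
  simp only [map_mul, Module.End.mul_apply, Units.val_mul, map_sub, map_zsmul]
  module

/-- The twisted action on the extended space. -/
def tw (ρ : Representation ℚ G V) (ε : G →* ℤˣ) : Representation ℚ G (V × ℚ) where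
  toFun g := ((ε g : ℤ) • ρ g).prodMap LinearMap.id
  map_one' := by ext <;> simp
  map_mul' g k := by ext <;> simp [smul_smul, mul_comm]

theorem tw_apply (ρ : Representation ℚ G V) (ε : G →* ℤˣ) (g : G) (a : V × ℚ) :
    tw ρ ε g a = ((ε g : ℤ) • ρ g a.1, a.2) := rfl

theorem embed {ρ : Representation ℚ G V} (inj : ∀ g, ρ g = 1 → g = 1) (ε : G →* ℤˣ)
    {K : Type*} [Group K] (f : G →* K) (hf : ∀ g, f g = 1 → tw ρ ε g = 1) :
    ∃ f : G →* Multiplicative (ZMod 2) × K, Function.Injective f := by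
  have : Fact (Nat.Prime 2) := ⟨Nat.prime_two⟩
  let κ : ℤˣ ≃* Multiplicative (ZMod 2) := mulEquivOfPrimeCardEq (p := 2) (by simp) (by simp)
  refine ⟨(κ.toMonoidHom.comp ε).prod f, (injective_iff_map_eq_one _).mpr fun g hg => inj g ?_⟩
  have e1 : ε g = 1 := κ.map_eq_one_iff.mp (congrArg Prod.fst hg)
  ext a
  have := congrArg Prod.fst (LinearMap.congr_fun (hf g (congrArg Prod.snd hg)) (a, 0))
  simpa [tw_apply, e1] using this

variable {ρ : Representation ℚ G V} {B : LinearMap.BilinForm ℚ V} {L : Submodule ℤ V}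
  {x : G} {w : V}

theorem tw_inv (inv : ∀ g a b, B (ρ g a) (ρ g b) = B a b) (ε : G →* ℤˣ) (D : ℚ) (g : G)
    (a b : V × ℚ) : BU B D (tw ρ ε g a) (tw ρ ε g b) = BU B D a b := by
  rcases Int.units_eq_one_or (ε g) with e | e <;> simp [BU_apply, tw_apply, e, inv]

theorem Glue.act {l : V} {d : ℕ} {D u1 u2 t1 t2 q2 : ℚ} (c : Glue B L w l D u1 u2 t1 t2 q2)
    (h : Lat ρ B L x w d) (Λ : Submodule ℤ V) (z : V) (inv : ∀ g, ∀ a ∈ Λ, ρ g a ∈ Λ)
    (ε : G →* ℤˣ) (hε : ∀ g, (ε g : ℤ) • ρ g z - z ∈ Λ)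
    (hN : ∀ n ∈ NN B L w (u1 • w, u2) (t1 • w, t2) (l, q2), ∃ j : ℤ, n.2 = j / D ∧ n.1 - j • z ∈ Λ)
    (h1 : ∀ a ∈ Λ, ∀ b ∈ Λ, ∃ k : ℤ, B a b = k) (h2 : ∀ a ∈ Λ, ∃ k : ℤ, B a z = k)
    (h3 : ∃ k : ℤ, B z z + 1 / D = k) :
    ∀ g, ∀ n ∈ NN B L w (u1 • w, u2) (t1 • w, t2) (l, q2),
      tw ρ ε g n ∈ NN B L w (u1 • w, u2) (t1 • w, t2) (l, q2) := fun g n hn =>
  c.sd h _ fun m hm => by
    obtain ⟨j, e1, m1⟩ := hN n hn
    obtain ⟨i, e2, m2⟩ := hN m hm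
    have m3 : (ε g : ℤ) • ρ g n.1 - j • z ∈ Λ := by
      convert Λ.add_mem (Λ.smul_mem (ε g : ℤ) (inv g _ m1)) (Λ.smul_mem j (hε g)) using 1
      simp only [map_sub, map_zsmul]
      module
    obtain ⟨k1, f1⟩ := h1 _ m3 _ m2
    obtain ⟨k2, f2⟩ := h2 _ m3
    obtain ⟨k3, f3⟩ := h2 _ m2
    obtain ⟨k4, f4⟩ := h3
    refine ⟨k1 + i * k2 + j * k3 + i * j * k4, ?_⟩
    rw [BU_apply, tw_apply, e1, e2]
    generalize (ε g : ℤ) • ρ g n.1 = y at *
    simp only [map_sub, map_zsmul, LinearMap.sub_apply, LinearMap.smul_apply, zsmul_eq_mul,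
      h.symm z m.1] at f1 f2 f3
    have := c.D0.ne'
    have e : D * ((j : ℚ) / D * (i / D)) = i * j * (1 / D) := by field_simp
    rw [e]
    push_cast
    linear_combination f1 + i * f2 + j * f3 + i * j * f4

theorem Glue.out {l : V} {d : ℕ} {D u1 u2 t1 t2 q2 : ℚ} (c : Glue B L w l D u1 u2 t1 t2 q2)
    (h : Lat ρ B L x w d) (hn : NonA B L w) :
    (∃ y, PP B L w y ∧ B y y = 44 / 23) ∧ ∀ ε : G →* ℤˣ,
      (∀ g, ∀ n ∈ NN B L w (u1 • w, u2) (t1 • w, t2) (l, q2),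
        tw ρ ε g n ∈ NN B L w (u1 • w, u2) (t1 • w, t2) (l, q2)) →
      (u1 = 0 → ∃ f : G →* Multiplicative (ZMod 2) × Cfsg.Spor.Co2, Function.Injective f) ∧
      (t1 = 0 → ∃ f : G →* Multiplicative (ZMod 2) × Cfsg.Spor.Co3, Function.Injective f) := by
  have := h.fin
  have h24 : finrank ℚ (V × ℚ) = 24 := by rw [finrank_prod, h.dim, finrank_self]
  have hs : ∀ a b, BU B D a b = BU B D b a := fun a b => by
    rw [BU_apply, BU_apply, h.symm, mul_comm a.2]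
  have hX : ∀ a b, BU B D ((ρ x).prodMap LinearMap.id a) ((ρ x).prodMap LinearMap.id b) =
      BU B D a b := fun a b => by simp [BU_apply, h.inv]
  have h23 : ((ρ x).prodMap LinearMap.id : Module.End ℚ (V × ℚ)) ^ 23 = 1 := by
    have : (ρ x).prodMap LinearMap.id = tw ρ 1 x := by ext <;> simp [tw_apply]
    rw [this, ← map_pow, h.x23, map_one]
  have Xu : ∀ a e : ℚ, (ρ x).prodMap LinearMap.id (a • w, e) = (a • w, e) := fun a e => by
    simp [h.xw]
  have uu : BU B D (u1 • w, u2) (u1 • w, u2) = 4 := by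
    simpa [BU_apply, mul_assoc] using c.uu
  have ut : BU B D (u1 • w, u2) (t1 • w, t2) = 1 := by
    rw [← c.ut]
    simp only [BU_apply, map_smul, LinearMap.smul_apply, smul_eq_mul]
    ring
  have tt : BU B D (t1 • w, t2) (t1 • w, t2) = 6 := by
    simpa [BU_apply, mul_assoc] using c.tt
  refine ⟨?_, fun ε hε => ⟨fun e => ?_, fun e => ?_⟩⟩
  · obtain ⟨z, hz, z1, z2, z3⟩ := H4.LeechId.short h24 _ hs _ (fg_NN h.fg w _ _ _) (c.sp h)
      (c.ev h) (c.mn h hn) (c.sd h) _ hX (c.XN h) h23 (mu _ _ _) (mt _ _ _) (Xu _ _) (Xu _ _)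
      uu ut tt (c.hf h)
    refine ⟨_, c.pp h hz, ?_⟩
    have := c.proj h z
    rw [z1, z2, z3] at this
    linarith
  · obtain ⟨f, hf⟩ := H4.LeechId.toCo2 h24 _ hs _ (fg_NN h.fg w _ _ _) (c.sp h)
      (c.ev h) (c.mn h hn) (c.sd h) _ hX (c.XN h) h23 (mu _ _ _) (mt _ _ _) (Xu _ _) (Xu _ _)
      uu ut tt (c.hf h) (tw ρ ε) (tw_inv h.inv ε D) hε fun g => by simp [tw_apply, e]
    exact embed h.inj ε f hf
  · obtain ⟨f, hf⟩ := H4.LeechId.toCo3 h24 _ hs _ (fg_NN h.fg w _ _ _) (c.sp h)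
      (c.ev h) (c.mn h hn) (c.sd h) _ hX (c.XN h) h23 (mu _ _ _) (mt _ _ _) (Xu _ _) (Xu _ _)
      uu ut tt (c.hf h) (tw ρ ε) (tw_inv h.inv ε D) hε fun g => by simp [tw_apply, e]
    exact embed h.inj ε f hf

theorem Lat.short2 (h : Lat ρ B L x w 2) (hn : NonA B L w) :
    ∃ y, PP B L w y ∧ B y y = 44 / 23 := by
  obtain ⟨l, hl, l1⟩ := h.l1
  obtain ⟨k, hk⟩ := h.par hl
  have ww := h.ww
  push_cast at ww hk
  have c : Glue B L w l 2 (1 / 2) (3 / 4) (1 / 2) (-5 / 4) (-1) :=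
    ⟨hl, l1, by norm_num, by linarith, by linarith, by linarith,
      ⟨-1, 3, by norm_num, by norm_num, by norm_num⟩, k + 2, by rw [hk, l1]; push_cast; ring⟩
  exact (c.out h hn).1

theorem Lat.six (h : Lat ρ B L x w 6) (hn : NonA B L w) :
    ∃ f : G →* Multiplicative (ZMod 2) × Cfsg.Spor.Co3, Function.Injective f := by
  obtain ⟨l, hl, l1⟩ := h.l1
  obtain ⟨k, hk⟩ := h.par hl
  have ww := h.ww
  push_cast at ww hk
  have c : Glue B L w l 6 1 (1 / 6) 0 1 0 :=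
    ⟨hl, l1, by norm_num, by linarith, by linarith, by linarith,
      ⟨1, 0, by norm_num, by norm_num, by norm_num⟩, k + 3, by rw [hk, l1]; push_cast; ring⟩
  obtain ⟨ε, hε⟩ := exists_sign ρ L w h.invL (fun g => by
    obtain ⟨m, hm⟩ := h.dual (ρ g w) fun a ha => by
      rw [h.toRep.adj, h.symm]
      exact h.wint _ (h.invL _ a ha)
    obtain ⟨s1, h1⟩ := h.int _ hm _ hm
    obtain ⟨s2, h2⟩ := h.wint _ hm
    simp only [map_sub, map_smul, LinearMap.sub_apply, LinearMap.smul_apply, smul_eq_mul, h.inv,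
      h.symm w (ρ g w)] at h1 h2
    have e : 23 * (1 - m ^ 2) = 6 * (s1 + 2 * m * s2) := by
      have : (23 * (1 - m ^ 2) : ℚ) = 6 * (s1 + 2 * m * s2) := by
        linear_combination 6 * h1 + 12 * m * h2 - (1 - m ^ 2) * ww
      exact_mod_cast this
    obtain ⟨r, hr⟩ : ∃ r : ℤ, m = 6 * r + 1 ∨ m = 6 * r - 1 := by
      have : m % 6 = 1 ∨ m % 6 = 5 := by
        have e2 : m ^ 2 % 6 = 1 := by omega
        have : m % 6 = 0 ∨ m % 6 = 1 ∨ m % 6 = 2 ∨ m % 6 = 3 ∨ m % 6 = 4 ∨ m % 6 = 5 := by omega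
        rcases this with e | e | e | e | e | e <;> simp [pow_two, Int.mul_emod, e] at e2 ⊢
      rcases this with e | e
      exacts [⟨m / 6, Or.inl (by omega)⟩, ⟨m / 6 + 1, Or.inr (by omega)⟩]
    have := L.add_mem hm ((h.dw (6 * r)).mpr ⟨r, by simp⟩)
    rcases hr with rfl | rfl
    · left
      convert this using 1
      push_cast
      module
    · right
      convert this using 1
      push_cast
      module) (fun e => by
        obtain ⟨r, hr⟩ := (h.dw 2).mp (by rwa [two_smul])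
        have : (2 : ℤ) = 6 * r := by exact_mod_cast hr
        omega)
  refine ((c.out h hn).2 ε (c.act h L w h.invL ε hε ?_ h.int h.wint ⟨4, ?_⟩)).2 rfl
  · rintro _ ⟨a, ha, -, i, j, k, rfl⟩
    refine ⟨i + 6 * j, by simp; ring, ?_⟩
    have := L.sub_mem (L.add_mem ha (L.smul_mem k hl)) ((h.dw (6 * j)).mpr ⟨j, by simp⟩)
    convert this using 1
    simp only [Prod.fst_add, Prod.smul_fst]
    module
  · push_cast
    linarith

theorem Lat.one (h : Lat ρ B L x w 1) (hn : NonA B L w) :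
    ∃ f : G →* Multiplicative (ZMod 2) × Cfsg.Spor.Co2, Function.Injective f := by
  obtain ⟨l, hl, l1⟩ := h.l1
  obtain ⟨k, hk⟩ := h.par hl
  have ww := h.ww
  push_cast at ww hk
  have wL : w ∈ L := by simpa using (h.dw 1).mpr ⟨1, by simp⟩
  have c : Glue B L w l 4 0 1 (1 / 2) (1 / 4) (1 / 2) :=
    ⟨hl, l1, by norm_num, by linarith, by linarith, by linarith,
      ⟨2, 1, by norm_num, by norm_num, by norm_num⟩, k + 1, by rw [hk, l1]; push_cast; ring⟩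
  let Λ : Submodule ℤ V :=
    { carrier := {a | a ∈ L ∧ ∃ k : ℤ, B a w = 2 * k}
      zero_mem' := ⟨L.zero_mem, 0, by simp⟩
      add_mem' := fun ⟨h1, i, hi⟩ ⟨h2, j, hj⟩ =>
        ⟨L.add_mem h1 h2, i + j, by simp [hi, hj, mul_add]⟩
      smul_mem' := fun r a ⟨h1, i, hi⟩ => ⟨L.smul_mem r h1, r * i, by simp [hi]; ring⟩ }
  have mΛ : ∀ a, a ∈ Λ ↔ a ∈ L ∧ ∃ k : ℤ, B a w = 2 * k := fun a => Iff.rfl
  have cg : ∀ g, ∀ a ∈ L, ∃ k : ℤ, B (ρ g a) w = B a w + 2 * k := fun g a ha => by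
    obtain ⟨i, hi⟩ := h.par ha
    obtain ⟨j, hj⟩ := h.par (h.invL g a ha)
    rw [h.inv] at hj
    exact ⟨i - j, by push_cast at *; linarith⟩
  have inv : ∀ g, ∀ a ∈ Λ, ρ g a ∈ Λ := fun g a ⟨ha, i, hi⟩ => by
    obtain ⟨j, hj⟩ := cg g a ha
    exact ⟨h.invL g a ha, i + j, by rw [hj, hi]; push_cast; ring⟩
  obtain ⟨ε, hε⟩ := exists_sign ρ Λ ((1 / 2 : ℚ) • w) inv (fun g => by
    obtain ⟨m, hm⟩ := h.dual (ρ g ((1 / 2 : ℚ) • w) - (1 / 2 : ℚ) • w) fun a ha => by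
      obtain ⟨j, hj⟩ := cg g⁻¹ a ha
      refine ⟨j, ?_⟩
      simp only [map_sub, map_smul, LinearMap.sub_apply, LinearMap.smul_apply, smul_eq_mul]
      rw [h.toRep.adj, h.symm w, h.symm w, hj]
      ring
    have m1 := L.add_mem hm (L.smul_mem m wL)
    rw [Int.cast_smul_eq_zsmul, sub_add_cancel] at m1
    obtain ⟨j, hj⟩ := h.wint _ m1
    rcases Int.even_or_odd' j with ⟨r, rfl | rfl⟩
    · exact Or.inl ⟨m1, r, by rw [hj]; simp⟩
    · have e : ρ g ((1 / 2 : ℚ) • w) + (1 / 2 : ℚ) • w =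
          ρ g ((1 / 2 : ℚ) • w) - (1 / 2 : ℚ) • w + w := by module
      refine Or.inr ⟨e ▸ L.add_mem m1 wL, r + 12, ?_⟩
      rw [e, map_add, LinearMap.add_apply, hj]
      push_cast
      linarith) (fun ⟨_, r, hr⟩ => by
        simp only [map_add, map_smul, LinearMap.add_apply, LinearMap.smul_apply,
          smul_eq_mul] at hr
        have : (23 : ℚ) = 2 * r := by linarith
        have : (23 : ℤ) = 2 * r := by exact_mod_cast this
        omega)
  refine ((c.out h hn).2 ε (c.act h Λ _ inv ε hε ?_ (fun a ha b hb => h.int a ha.1 b hb.1)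
    (fun a ⟨_, r, hr⟩ => ⟨r, by simp [hr]⟩) ⟨6, ?_⟩)).1 rfl
  · rintro _ ⟨a, ha, a0, i, j, k, rfl⟩
    refine ⟨4 * i + j + 2 * k, by simp; ring, ?_⟩
    have e : ((a, (0 : ℚ)) + (i : ℚ) • ((0 : ℚ) • w, (1 : ℚ)) +
        (j : ℚ) • ((1 / 2 : ℚ) • w, (1 / 4 : ℚ)) + (k : ℚ) • (l, (1 / 2 : ℚ))).1 -
        (4 * i + j + 2 * k) • (1 / 2 : ℚ) • w = a + k • l - (2 * i + k) • w := by
      simp only [Prod.fst_add, Prod.smul_fst]
      module
    rw [e]
    refine ⟨L.sub_mem (L.add_mem ha (L.smul_mem k hl)) (L.smul_mem _ wL), -23 * i - 11 * k, ?_⟩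
    simp only [map_sub, map_add, map_zsmul, LinearMap.sub_apply, LinearMap.add_apply,
      LinearMap.smul_apply, zsmul_eq_mul, a0, l1]
    push_cast
    linear_combination (-2 * i - k) * ww
  · simp only [map_smul, LinearMap.smul_apply, smul_eq_mul]
    push_cast
    linarith

end Cfsg.Agent.H2.F23
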