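import Cfsg.Agent.H2.F23h

/-!
# Rational representations of degree twenty-three: discriminant ten
-/

set_option autoImplicit false

namespace Cfsg.Agent.H2.F23

open Module

variable {V : Type*} [AddCommGroup V] [Module ℚ V] {G : Type*} [Group G]

theorem cube_nonneg [FiniteDimensional ℚ V] (B : LinearMap.BilinForm ℚ V)
    (hs : ∀ a b, B a b = B b a) (hp : ∀ a, 0 ≤ B a a) {ι : Type*} [Fintype ι] (v : ι → V) :
    0 ≤ ∑ i, ∑ j, B (v i) (v j) ^ 3 := by
  obtain ⟨b, hb⟩ := LinearMap.BilinForm.exists_orthogonal_basis (B := B) ⟨hs⟩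
  have e : ∀ a c, B a c = ∑ k, B (b k) (b k) * (b.repr a k * b.repr c k) := fun a c => by
    conv_lhs => rw [← b.sum_repr a, ← b.sum_repr c]
    simp only [map_sum, map_smul, LinearMap.sum_apply, LinearMap.smul_apply, smul_eq_mul,
      Finset.mul_sum]
    refine Finset.sum_congr rfl fun k _ => ?_
    rw [Finset.sum_eq_single k (fun j _ hj => by rw [show B (b j) (b k) = 0 from hb hj]; ring)
      (by simp)]
    ring
  let q : Fin (finrank ℚ V) × Fin (finrank ℚ V) × Fin (finrank ℚ V) → ℚ := fun p =>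
    B (b p.1) (b p.1) * B (b p.2.1) (b p.2.1) * B (b p.2.2) (b p.2.2)
  let c : ι → Fin (finrank ℚ V) × Fin (finrank ℚ V) × Fin (finrank ℚ V) → ℚ := fun i p =>
    b.repr (v i) p.1 * b.repr (v i) p.2.1 * b.repr (v i) p.2.2
  have e2 : ∀ i j, B (v i) (v j) ^ 3 = ∑ p, q p * (c i p * c j p) := fun i j => by
    rw [e (v i), pow_three, Finset.sum_mul_sum, Finset.sum_mul_sum]
    simp only [Fintype.sum_prod_type, Finset.mul_sum]
    refine Finset.sum_congr rfl fun _ _ => Finset.sum_congr rfl fun _ _ =>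
      Finset.sum_congr rfl fun _ _ => ?_
    simp only [q, c]
    ring
  have e3 : ∑ i, ∑ j, B (v i) (v j) ^ 3 = ∑ p, q p * ((∑ i, c i p) * ∑ j, c j p) := by
    simp only [e2, Finset.sum_mul_sum]
    simp only [Finset.mul_sum]
    rw [Finset.sum_comm (s := Finset.univ (α := _ × _))]
    exact Finset.sum_congr rfl fun i _ => Finset.sum_comm
  rw [e3]
  exact Finset.sum_nonneg fun p _ => mul_nonneg (mul_nonneg (mul_nonneg (hp _) (hp _)) (hp _))
    (mul_self_nonneg _)

variable {ρ : Representation ℚ G V} {B : LinearMap.BilinForm ℚ V} {L : Submodule ℤ V}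
  {x : G} {w : V}

theorem Lat.ten [Finite G] (h : Lat ρ B L x w 10) (hn : NonA B L w) : False := by
  have := Fintype.ofFinite G
  have := h.fin
  have ww := h.ww
  push_cast at ww
  have hD : ∀ g, ∀ a ∈ L, ∃ k : ℤ, B (ρ g w) a = k := fun g a ha => by
    rw [h.toRep.adj, h.symm]
    exact h.wint _ (h.invL _ a ha)
  have hk : ∀ g, ∀ k : ℤ, 10 * B (ρ g w) w = k → k ^ 2 = 529 ∨ k ^ 2 = 49 ∨ k ^ 2 = 9 :=
    fun g k e => by
    have p := h.PP_proj (y := ρ g w) fun a ha _ => hD g a ha
    have e1 := h.norm_proj (ρ g w)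
    obtain ⟨n, e2, e3⟩ := h.PP_norm p
    have e4 : 529 - k ^ 2 = 20 * n := by
      have : (529 - k ^ 2 : ℚ) = 20 * n := by
        rw [h.inv] at e1
        push_cast at e1 e2
        rw [← e]
        linear_combination 10 * e2 - 230 * e1 - 23 * ww
      exact_mod_cast this
    by_cases y0 : ρ g w - (((10 : ℕ) : ℚ) * B (ρ g w) w / 23) • w = 0
    · rw [y0] at e2
      have : n = 0 := by simpa using e2
      left
      omega
    have e5 : 24 ≤ n ∨ n = 22 := by
      by_contra hc
      have n1 : (n : ℚ) ≤ 23 := by exact_mod_cast (by omega : n ≤ 23)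
      have := hn _ p y0 (by linarith)
      have : (n : ℚ) = 22 := by linarith
      exact hc (Or.inr (by exact_mod_cast this))
    have e6 : k ^ 2 ≤ 89 := by omega
    have k1 : k ≤ 10 := by nlinarith
    have k2 : -10 ≤ k := by nlinarith
    interval_cases k <;> omega
  obtain ⟨ε, hε⟩ := exists_sign ρ L w h.invL (fun g => by
    obtain ⟨m, hm⟩ := h.dual (ρ g w) (hD g)
    obtain ⟨s, hs⟩ := h.wint _ hm
    simp only [map_sub, map_smul, LinearMap.sub_apply, LinearMap.smul_apply, smul_eq_mul] at hs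
    have e := hk g (10 * s + 23 * m) (by push_cast; linear_combination 10 * hs + m * ww)
    obtain ⟨r, hr⟩ : ∃ r : ℤ, m = 10 * r + 1 ∨ m = 10 * r - 1 := by
      have : m % 10 = 1 ∨ m % 10 = 9 := by
        rcases e with e | e | e
        · have := sq_eq_sq_iff_eq_or_eq_neg.mp (e.trans (by norm_num : (529 : ℤ) = 23 ^ 2))
          omega
        · have := sq_eq_sq_iff_eq_or_eq_neg.mp (e.trans (by norm_num : (49 : ℤ) = 7 ^ 2))
          omega
        · have := sq_eq_sq_iff_eq_or_eq_neg.mp (e.trans (by norm_num : (9 : ℤ) = 3 ^ 2))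
          omega
      rcases this with e | e
      exacts [⟨m / 10, Or.inl (by omega)⟩, ⟨m / 10 + 1, Or.inr (by omega)⟩]
    have := L.add_mem hm ((h.dw (10 * r)).mpr ⟨r, by simp⟩)
    rcases hr with rfl | rfl
    · left
      convert this using 1
      push_cast
      module
    · right
      convert this using 1
      push_cast
      module) (fun e => by
        obtain ⟨r, hr⟩ := (h.dw 2).mp (by rwa [two_smul])
        have : (2 : ℤ) = 10 * r := by exact_mod_cast hr
        omega)
  let v : G → V := fun g => (ε g : ℤ) • ρ g w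
  have hv : ∀ g k, (ε g : ℤ) • ρ g (v k) = v (g * k) := fun g k => by
    simp [v, smul_smul]
  have e2 : ∀ g, ((ε g : ℤ) : ℚ) ^ 2 = 1 := fun g => by
    rcases Int.units_eq_one_or (ε g) with e | e <;> simp [e]
  have hb : ∀ g k, B (v (g * k)) (v g) = B (v k) w := fun g k => by
    rw [← hv]
    simp only [v, map_zsmul, LinearMap.smul_apply, zsmul_eq_mul, h.inv]
    linear_combination ((ε k : ℤ) * B (ρ k w) w) * e2 g
  have c3 : ∀ g, (10 * B (v g) w - 23) * (10 * B (v g) w - 3) * (10 * B (v g) w + 7) = 0 :=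
    fun g => by
    obtain ⟨s, hs⟩ := h.wint _ (hε g)
    rw [map_sub, LinearMap.sub_apply] at hs
    have e1 : 10 * B (v g) w = ((10 * s + 23 : ℤ) : ℚ) := by
      push_cast
      linear_combination 10 * hs + ww
    have e := hk g (ε g * (10 * s + 23)) (by
      rw [Int.cast_mul, ← e1]
      simp only [v, map_zsmul, LinearMap.smul_apply, zsmul_eq_mul]
      linear_combination (-10 * B (ρ g w) w) * e2 g)
    rw [mul_pow, ← Units.val_pow_eq_pow_val, Int.units_sq, Units.val_one, one_mul] at e
    have : s = 0 ∨ s = -2 ∨ s = -3 := by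
      rcases e with e | e | e
      · have := sq_eq_sq_iff_eq_or_eq_neg.mp (e.trans (by norm_num : (529 : ℤ) = 23 ^ 2))
        omega
      · have := sq_eq_sq_iff_eq_or_eq_neg.mp (e.trans (by norm_num : (49 : ℤ) = 7 ^ 2))
        omega
      · have := sq_eq_sq_iff_eq_or_eq_neg.mp (e.trans (by norm_num : (9 : ℤ) = 3 ^ 2))
        omega
    rw [e1]
    rcases this with rfl | rfl | rfl <;> norm_num
  have s1 : ∑ g, v g = 0 := by
    by_contra hc
    obtain ⟨g, hg⟩ := h.toRep.no_line hc
    refine hg (ε g : ℤ) ?_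
    have : (ε g : ℤ) • ρ g (∑ k, v k) = ∑ k, v k := by
      rw [map_sum, Finset.smul_sum]
      exact Fintype.sum_equiv (Equiv.mulLeft g) _ _ fun k => hv g k
    conv_rhs => rw [← this, ← Int.cast_smul_eq_zsmul ℚ, smul_smul, ← sq, e2, one_smul]
  have s1' : ∑ g, B (v g) w = 0 := by
    rw [← LinearMap.sum_apply, ← map_sum, s1, map_zero, LinearMap.zero_apply]
  have s2 : ∑ g, B (v g) w ^ 2 = Nat.card G / 23 * B w w * B w w := by
    have := congrArg (B w) (h.toRep.avg w w w)
    rw [map_sum, map_smul, smul_eq_mul] at this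
    rw [← this]
    refine Finset.sum_congr rfl fun g _ => ?_
    simp only [v, map_zsmul, LinearMap.smul_apply, zsmul_eq_mul, map_smul, smul_eq_mul,
      h.symm w]
    linear_combination (B (ρ g w) w ^ 2) * e2 g
  have s3 := cube_nonneg B h.symm h.toRep.nonneg v
  rw [Finset.sum_comm, Finset.sum_congr rfl fun g _ => (Fintype.sum_equiv (Equiv.mulLeft g)
    (fun k => B (v k) w ^ 3) _ fun k => by rw [← hb g k]; rfl).symm, Finset.sum_const,
    Finset.card_univ, nsmul_eq_mul, ← Nat.card_eq_fintype_card] at s3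
  have n0 : (0 : ℚ) < Nat.card G := by exact_mod_cast Nat.card_pos
  have s4 : 1000 * ∑ g, B (v g) w ^ 3 - 1900 * ∑ g, B (v g) w ^ 2 - 1130 * ∑ g, B (v g) w +
      483 * Nat.card G = 0 := by
    rw [← Finset.sum_eq_zero fun g (_ : g ∈ Finset.univ) => c3 g, Nat.card_eq_fintype_card,
      ← Finset.card_univ, Finset.card_eq_sum_ones]
    simp only [Finset.mul_sum, ← Finset.sum_sub_distrib, Nat.cast_sum, ← Finset.sum_add_distrib]
    exact Finset.sum_congr rfl fun g _ => by push_cast; ring
  have w1 : B w w = 23 / 10 := by linarith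
  rw [s1', s2, w1] at s4
  have := nonneg_of_mul_nonneg_right s3 n0
  linarith

end Cfsg.Agent.H2.F23
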