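import Cfsg.Agent.H2.F23c
import Cfsg.Agent.H2.F23h
import Cfsg.Agent.H1.F23Dich

/-!
# Rational representations of degree twenty-three: reduction to the reduced lattice
-/

set_option autoImplicit false

namespace Cfsg.Agent.H2.F23

open Module

theorem exists_lat {G : Type*} [Group G] [Finite G] (ρ : G →* GL (Fin 23) ℚ)
    (hρ : Function.Injective ρ)
    (hirr : ∀ W : Submodule ℚ (Fin 23 → ℚ), (∀ g : G, ∀ w ∈ W,
      ((ρ g : GL (Fin 23) ℚ) : Matrix (Fin 23) (Fin 23) ℚ).mulVec w ∈ W) → W = ⊥ ∨ W = ⊤) :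
    ∃ (σ : Representation ℚ G (Fin 23 → ℚ)) (B : LinearMap.BilinForm ℚ (Fin 23 → ℚ))
      (L : Submodule ℤ (Fin 23 → ℚ)) (x : G) (w : Fin 23 → ℚ) (d : ℕ), Lat σ B L x w d := by
  let σ : Representation ℚ G (Fin 23 → ℚ) :=
    (Matrix.toLinAlgEquiv' (R := ℚ) (n := Fin 23)).toMonoidHom.comp ((Units.coeHom _).comp ρ)
  obtain ⟨B, h1, h2, h3⟩ := exists_form σ
  obtain ⟨B, L, h⟩ := exists_min (ρ := σ) (B₀ := B) ⟨by simp, fun g hg => hρ (by
    rw [map_one]
    exact Units.ext ((Matrix.toLinAlgEquiv' (R := ℚ) (n := Fin 23)).injective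
      (hg.trans (map_one _).symm))), hirr, h1, h2, h3⟩
  obtain ⟨x, w, d, h⟩ := h.exists_lat
  exact ⟨σ, B, L, x, w, d, h⟩

theorem Lat.final {V : Type*} [AddCommGroup V] [Module ℚ V] {G : Type*} [Group G]
    {ρ : Representation ℚ G V} {B : LinearMap.BilinForm ℚ V} {L : Submodule ℤ V} {x : G} {w : V}
    {d : ℕ} (h : Lat ρ B L x w d) (h1 : ¬ CaseA ρ B L x w)
    (h2 : NonA B L w → d = 1 ∨ d = 2 ∨ d = 6)
    (h3 : NonA B L w → d = 2 → ¬ ∃ y, PP B L w y ∧ B y y = 44 / 23) :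
    (∃ f : G →* Multiplicative (ZMod 2) × Cfsg.Spor.Co2, Function.Injective f) ∨
    (∃ f : G →* Multiplicative (ZMod 2) × Cfsg.Spor.Co3, Function.Injective f) := by
  have hn := h.dich.resolve_left h1
  rcases h2 hn with rfl | rfl | rfl
  · exact Or.inl (h.one hn)
  · exact absurd (h.short2 hn) (h3 hn rfl)
  · exact Or.inr (h.six hn)

end Cfsg.Agent.H2.F23
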