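import Cfsg.Agent.H2.SzGraph
import Cfsg.Agent.H6.PGL2

/-!
# Recognition of `PSL₂(2^m)` by the prime graph
-/

set_option autoImplicit false

namespace Cfsg.Agent.H2

open Subgroup MulAction H5
open scoped Pointwise

variable {G : Type*} [Group G] [Finite G]

/-- A CIT-group has no proper normal subgroup of `2`-power index which is Zassenhaus on its Sylow
`2`-subgroups. -/
theorem eq_top_of_cit_ti (hG : IsCIT G) (L : Subgroup G) [hL : L.Normal]
    (h2 : IsPGroup 2 (G ⧸ L)) (hT : SylTI L) (he : Even (Nat.card L))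
    (hns : ¬ Group.IsSolvable L) : L = ⊤ := by
  have hL' := hG.subgroup L
  obtain ⟨hnt, h⟩ := exists_two_invols hL' hT he hns
  obtain ⟨a, b, hab⟩ := exists_pair_ne (Sylow 2 L)
  obtain ⟨u, hu, v, hv, huv⟩ := h a
  have Z := hT.zs hL' hu hv huv
  let φ : G →* MulAut L := MulAut.conjNormal
  have hc : ∀ (l : L) (P : Sylow 2 L), φ l • P = l • P := fun l P => by
    change φ l • P = MulAut.conj l • P
    congr 1
    ext x
    rfl
  by_contra hne
  obtain ⟨g, hg⟩ : ∃ g, g ∉ L := by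
    by_contra h
    push Not at h
    exact hne (eq_top_iff.2 fun g _ => h g)
  obtain ⟨l, la, lb⟩ := Z.two hab (c := φ g • a) (d := φ g • b)
    fun e => hab (smul_left_cancel (φ g) e)
  let M : Subgroup G := (stabilizer (MulAut L) a ⊓ stabilizer (MulAut L) b).comap φ
  have hx : (l : G)⁻¹ * g ∈ M :=
    ⟨show φ _ • a = a by rw [map_mul, map_inv, mul_smul, ← la, ← hc, inv_smul_smul],
      show φ _ • b = b by rw [map_mul, map_inv, mul_smul, ← lb, ← hc, inv_smul_smul]⟩
  have hx' : (l : G)⁻¹ * g ∉ L := fun h => hg (by simpa using L.mul_mem l.2 h)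
  generalize (l : G)⁻¹ * g = x at hx hx'
  obtain ⟨k, hk, hxk⟩ := exists_odd_twoEl_pow x
  have hxk1 : x ^ k ≠ 1 := fun e => hx' ((QuotientGroup.eq_one_iff x).1
    (TwoEl.eq_one_of_pow_odd (h2 _) hk (by rw [← QuotientGroup.mk_pow, e]; rfl)))
  obtain ⟨j, t1, t2⟩ := hxk.exists_involution hxk1
  have htM : (x ^ k) ^ j ∈ M := pow_mem (pow_mem hx k) j
  generalize (x ^ k) ^ j = t at t1 t2 htM
  have hX : ∀ y ∈ M ⊓ L, TwoEl y → y = 1 := fun y hy h2 => congrArg Subtype.val
    (hT.eq_one_of_fix hab (x := ⟨y, hy.2⟩) (h2.imp fun _ h => Subtype.ext h)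
      ((hc _ _).symm.trans hy.1.1) ((hc _ _).symm.trans hy.1.2))
  obtain ⟨w, hw⟩ := hT.exists_swap hL' b hu
  obtain ⟨y, hy, e⟩ := hT.exists_stab_conj hL' hab hu hv
  have hy' : (y : G) ∈ M ⊓ L := ⟨⟨(hc _ _).trans hy.1, (hc _ _).trans hy.2⟩, y.2⟩
  have e1 := hG.inverts hX t1 t2
    (fun z hz => ⟨M.mul_mem (M.mul_mem htM hz.1) (M.inv_mem htM), hL.conj_mem z hz.2 t⟩)
    (inv_mem hy')
  have e2 : (w : G) * y * (w : G)⁻¹ = (y : G)⁻¹ :=
    congrArg Subtype.val (hT.swap_inverts hL' hab hw hy)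
  have e3 : Commute (y : G) (t * w) := by
    calc y * (t * w) = t * (w * y * (w : G)⁻¹) * t⁻¹ * (t * w) := by rw [e2, e1, inv_inv]
      _ = _ := by group
  obtain ⟨_, ⟨n, rfl⟩, hn⟩ := exists_odd_twoEl_pow (t * w)
  have e4 : φ (t * w) • a = b := by rw [map_mul, mul_smul, hc, hw.2.2]; exact htM.2
  have e5 : φ (t * w) • b = a := by rw [map_mul, mul_smul, hc, SylTI.swaps_smul hw]; exact htM.1
  have e6 : φ ((t * w) ^ (2 * n + 1)) • a = b := by
    have : φ (t * w) ^ 2 ∈ stabilizer (MulAut L) a := by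
      rw [mem_stabilizer_iff, sq, mul_smul, e4, e5]
    rw [map_pow, pow_succ', mul_smul, pow_mul, mem_stabilizer_iff.1 (pow_mem this n), e4]
  have := hX _ hy' (hG.twoEl hn (fun e => hab (by rw [← e6, e, map_one, one_smul]))
    (e3.pow_right _))
  exact huv (by rw [← e, show y = 1 from Subtype.ext this]; group)

variable (G) in
/-- The subgroup generated by the elements of odd order. -/
def oddGen : Subgroup G := closure {x | Odd (orderOf x)}

omit [Finite G] in
instance oddGen_normal : (oddGen G).Normal := by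
  refine ⟨fun x hx g => ?_⟩
  induction hx using closure_induction with
  | mem x hx => exact subset_closure (by
      rwa [Set.mem_ofPred_eq, ← MulAut.conj_apply, MulEquiv.orderOf_eq])
  | one => simp
  | mul x y _ _ hx hy => simpa [mul_assoc] using mul_mem hx hy
  | inv x _ hx => simpa [mul_assoc] using inv_mem hx

theorem isPGroup_quot_oddGen : IsPGroup 2 (G ⧸ oddGen G) := by
  intro x
  obtain ⟨x, rfl⟩ := QuotientGroup.mk_surjective x
  obtain ⟨k, hk⟩ := exists_odd_pow_two_pow x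
  exact ⟨k, by rw [← QuotientGroup.mk_pow, QuotientGroup.eq_one_iff]; exact subset_closure hk⟩

omit [Finite G] in
theorem index_ne_two_oddGen (N : Subgroup (oddGen G)) : N.index ≠ 2 := by
  intro h
  have : oddGen G ≤ N.map (oddGen G).subtype := by
    refine (closure_le _).2 fun x hx => ⟨⟨x, subset_closure hx⟩, ?_, rfl⟩
    obtain ⟨k, hk⟩ := hx
    have h1 := pow_mem (sq_mem_of_index_two h ⟨x, subset_closure ⟨k, hk⟩⟩) (k + 1)
    have h2 : (x ^ 2) ^ (k + 1) = x := by
      rw [← pow_mul, show 2 * (k + 1) = 2 * k + 1 + 1 by ring, pow_succ, ← hk, pow_orderOf_eq_one,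
        one_mul]
    rwa [show ((⟨x, subset_closure ⟨k, hk⟩⟩ : oddGen G) ^ 2) ^ (k + 1) =
      ⟨x, subset_closure ⟨k, hk⟩⟩ from Subtype.ext h2] at h1
  have h1 : N = ⊤ := eq_top_iff.2 fun x _ => by
    obtain ⟨y, hy, e⟩ := this x.2
    rwa [← show y = x from Subtype.ext e]
  rw [h1, index_top] at h
  omega

theorem dvd_card_oddGen {r : ℕ} (hr : r.Prime) (h2 : r ≠ 2) :
    r ∣ Nat.card (oddGen G) ↔ r ∣ Nat.card G := by
  obtain ⟨k, hk⟩ := IsPGroup.iff_card.1 (isPGroup_quot_oddGen (G := G))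
  rw [card_eq_card_quotient_mul_card_subgroup (oddGen G), hk]
  exact (Nat.Coprime.dvd_mul_left (((Nat.coprime_primes hr Nat.prime_two).2 h2).pow_right k)).symm

omit [Finite G] in
theorem pCore_eq_bot_of_normal {p : ℕ} (h : Cfsg.pCore p G = ⊥) (L : Subgroup G) [L.Normal] :
    Cfsg.pCore p L = ⊥ := by
  have := H7.pCore_characteristic p L
  have h1 : (Cfsg.pCore p L).map L.subtype ≤ ⊥ :=
    h ▸ H7.le_pCore inferInstance ((H7.pCore_isPGroup p L).map _)
  rwa [le_bot_iff, map_eq_bot_iff_of_injective _ L.subtype_injective] at h1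

theorem oddGen_even (hG : IsCIT G) (he : Even (Nat.card G)) (hns : ¬ Group.IsSolvable G) :
    Even (Nat.card (oddGen G)) ∧ ¬ Group.IsSolvable (oddGen G) := by
  have h1 : ¬ Group.IsSolvable (oddGen G) := fun h => by
    have := (isPGroup_quot_oddGen (G := G)).isNilpotent
    exact hns ((Group.isSolvable_iff_subgroup_quotient (oddGen G)).2 ⟨h, inferInstance⟩)
  refine ⟨Nat.not_odd_iff_even.1 fun ho => h1 ?_, h1⟩
  obtain ⟨t, -, t1, t2⟩ := exists_involution_of_even (H := (⊤ : Subgroup G)) (by simpa using he)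
  exact Group.isSolvable_of_comm fun x y => Subtype.ext (comm_of_inverts' (fun h hh =>
    hG.inverts (fun x hx h2 => h2.eq_one_of_odd (ho.of_dvd_nat (orderOf_dvd_natCard _ hx))) t1 t2
      (fun x hx => oddGen_normal.conj_mem x hx t) hh) x.2 y.2)

theorem psl2_prime_dvd {p a : ℕ} (hp : p.Prime) (hp2 : p ≠ 2) :
    p ∣ 2 ^ a * (2 ^ a - 1) * (2 ^ a + 1) ↔ p ∣ 2 ^ (2 * a) - 1 := by
  have e : 2 ^ (2 * a) - 1 = (2 ^ a - 1) * (2 ^ a + 1) := by
    have h1 : 1 ≤ 2 ^ a := Nat.one_le_two_pow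
    have h2 : 1 ≤ 2 ^ (2 * a) := Nat.one_le_two_pow
    zify [h1, h2]
    rw [mul_comm 2 a, pow_mul]
    ring
  rw [e, mul_assoc]
  exact (((Nat.coprime_primes hp Nat.prime_two).2 hp2).pow_right a).dvd_mul_left

theorem ne_two_of_dvd_pow_sub_one {p a : ℕ} (ha : 1 ≤ a) (h : p ∣ 2 ^ a - 1) : p ≠ 2 := by
  rintro rfl
  have h1 : 2 ∣ 2 ^ a := dvd_pow_self 2 (by omega)
  have h2 : 1 ≤ 2 ^ a := Nat.one_le_two_pow
  omega

/-- The orders in the list of non-TI CIT-groups. -/
def ExcOrder (n : ℕ) : Prop := n = 360 ∨ n = 20160 ∨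
  ∃ p k : ℕ, p.Prime ∧ (p = 2 ^ k + 1 ∨ p + 1 = 2 ^ k) ∧ n * Nat.gcd (p - 1) 2 = p * (p - 1) * (p + 1)

theorem not_excOrder {n m : ℕ} (hm : 4 ≤ m)
    (h : ∀ p : ℕ, p.Prime → p ≠ 2 → (p ∣ n ↔ p ∣ 2 ^ (2 * m) - 1)) : ¬ ExcOrder n := by
  have small : ¬ n ∣ 20160 := fun hn => by
    have := dvd_of_primes (a := 2 * m) (b := 12) (by omega) (by omega) fun p hp h1 h2 => by
      have h3 := ((h p hp (ne_two_of_dvd_pow_sub_one (by omega) h1)).2 h1).trans hn
      have h4 := ne_two_of_dvd_pow_sub_one (by omega) h1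
      have h5 : p ∣ 2 ^ 6 * 315 := h3
      exact ((((Nat.coprime_primes hp Nat.prime_two).2 h4).pow_right 6).dvd_of_dvd_mul_left
        h5).trans (by norm_num)
    have h6 : m = 6 := by
      have h7 : m ≤ 6 := by have := Nat.le_of_dvd (by norm_num) this; omega
      interval_cases m <;> omega
    subst h6
    have := ((h 13 (by norm_num) (by norm_num)).2 (by norm_num)).trans hn
    omega
  rintro (rfl | rfl | ⟨p, k, hp, hk, e⟩)
  · exact small (by norm_num)
  · exact small dvd_rfl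
  have h1 : ∀ r : ℕ, r.Prime → r ≠ 2 → (r ∣ 2 ^ (2 * m) - 1 ↔ r = p ∨ r ∣ p - 1 ∨ r ∣ p + 1) := by
    intro r hr hr2
    rw [← h r hr hr2, ← Nat.prime_dvd_prime_iff_eq hr hp, ← or_assoc, ← hr.dvd_mul, ← hr.dvd_mul,
      ← e]
    exact (((Nat.coprime_primes hr Nat.prime_two).2 hr2).coprime_dvd_right
      (Nat.gcd_dvd_right _ _)).dvd_mul_right.symm
  have h2 : ∀ r j : ℕ, r.Prime → r ≠ 2 → ¬ r ∣ 2 ^ j := fun r j hr hr2 h =>
    hr2 ((Nat.prime_dvd_prime_iff_eq hr Nat.prime_two).1 (hr.dvd_of_dvd_pow h))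
  have h3 : ∀ r j : ℕ, r ∣ 2 ^ j + 1 → r ∣ 2 ^ (2 * j) - 1 := fun r j h => by
    rw [mul_comm, pow_mul, ← one_pow 2, Nat.sq_sub_sq]; exact h.mul_right _
  have h4 : ∀ r j : ℕ, r.Prime → r ≠ 2 → r ∣ 2 * j → r ∣ j := fun r j hr hr2 h =>
    ((Nat.coprime_primes hr Nat.prime_two).2 hr2).dvd_of_dvd_mul_left h
  have hk0 : k ≠ 0 := by
    rintro rfl
    rcases hk with rfl | hk
    · have := dvd_of_primes (a := 2 * m) (b := 2) (by omega) (by omega) fun r hr h5 _ => by
        have h6 := ne_two_of_dvd_pow_sub_one (by omega) h5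
        rcases (h1 r hr h6).1 h5 with h | h | h
        · exact absurd h h6
        · exact h.trans (by norm_num)
        · exact h
      have := Nat.le_of_dvd two_pos this
      omega
    · have := hp.pos
      omega
  obtain ⟨k, rfl⟩ := Nat.exists_eq_succ_of_ne_zero hk0
  have hk1 : 1 ≤ 2 ^ k := Nat.one_le_two_pow
  have hp2 : p ≠ 2 := by rw [pow_succ] at hk; omega
  have h5 := (h1 p hp hp2).2 (Or.inl rfl)
  rcases hk with hk | hk
  · -- Fermat primes
    have h6 : ∀ r : ℕ, r.Prime → r ≠ 2 → r ∣ 2 ^ (2 * m) - 1 → r = p ∨ r ∣ 2 ^ k + 1 := by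
      intro r hr hr2 h
      rcases (h1 r hr hr2).1 h with h | h | h
      · exact Or.inl h
      · exact absurd (by simpa [hk] using h) (h2 r (k + 1) hr hr2)
      · exact Or.inr (h4 r _ hr hr2 (by convert h using 1; rw [hk, pow_succ]; ring))
    have h7 : k + 1 ≤ 2 * m := by
      have := Nat.le_of_dvd (Nat.sub_pos_of_lt (Nat.one_lt_two_pow (by omega))) h5
      exact (Nat.pow_le_pow_iff_right one_lt_two).1 (show 2 ^ (k + 1) ≤ 2 ^ (2 * m) by omega)
    by_cases hkm : k + 1 ≤ m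
    · rcases hkm.eq_or_lt with hkm | hkm
      · have h8 : ∀ r : ℕ, r.Prime → r ∣ 2 ^ m - 1 → r ∣ 3 := fun r hr h => by
          have h9 : r ∣ 2 ^ (2 * m) - 1 := h.trans (Nat.pow_sub_one_dvd_pow_sub_one 2 (by simp))
          rw [← hkm, pow_succ] at h
          rcases h6 r hr (ne_two_of_dvd_pow_sub_one (by omega) h9) h9 with h' | h'
          · have := Nat.le_of_dvd (by omega) h
            rw [pow_succ] at hk
            omega
          · have := (Nat.dvd_sub (h'.mul_right 2) h)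
            rwa [show (2 ^ k + 1) * 2 - (2 ^ k * 2 - 1) = 3 by omega] at this
        by_cases h6m : m = 6
        · subst h6m
          exact absurd (h8 7 (by norm_num) (by norm_num)) (by norm_num)
        · have := Nat.le_of_dvd two_pos (dvd_of_primes (a := m) (b := 2) (by omega) h6m
            fun r hr h _ => h8 r hr h)
          omega
      · obtain ⟨r, hr, r1, r2⟩ := zsigmondy 2 (2 * m) le_rfl (by omega) (by omega)
        have r3 := ne_two_of_dvd_pow_sub_one (by omega) r1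
        rcases h6 r hr r3 r1 with h | h
        · exact r2 (2 * (k + 1)) (by omega) (by omega) (h3 _ _ (by rw [h, hk]))
        · rcases Nat.eq_zero_or_pos k with rfl | hk0
          · exact h2 r 1 hr r3 h
          · exact r2 (2 * k) (by omega) (by omega) (h3 _ _ h)
    · have h8 : 2 ^ (2 * m) - 1 = 2 ^ (2 * m - (k + 1)) * p - (2 ^ (2 * m - (k + 1)) + 1) := by
        rw [hk, mul_add, ← pow_add, Nat.sub_add_cancel h7]
        omega
      have h9 : p ∣ 2 ^ (2 * m - (k + 1)) + 1 := by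
        rw [h8] at h5
        refine (Nat.dvd_sub_iff_right ?_ (dvd_mul_left _ _)).1 h5
        have : 1 ≤ 2 ^ (2 * m - (k + 1)) := Nat.one_le_two_pow
        have := hp.two_le
        nlinarith
      have := Nat.le_of_dvd (by positivity) h9
      have : 2 ^ (2 * m - (k + 1)) < 2 ^ (k + 1) := Nat.pow_lt_pow_right one_lt_two (by omega)
      omega
  · -- Mersenne primes
    have hk2 : k ≠ 0 := by rintro rfl; have := hp.two_le; omega
    have h6 : 2 * m ∣ k := by
      refine dvd_of_primes (by omega) (by omega) fun r hr r1 r2 => ?_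
      have r3 := ne_two_of_dvd_pow_sub_one (by omega) r1
      rcases (h1 r hr r3).1 r1 with h | h | h
      · exfalso
        have h7 : k + 1 ≤ 2 * m := by
          have := Nat.le_of_dvd (Nat.sub_pos_of_lt (Nat.one_lt_two_pow (by omega))) h5
          exact (Nat.pow_le_pow_iff_right one_lt_two).1 (show 2 ^ (k + 1) ≤ 2 ^ (2 * m) by omega)
        rcases h7.eq_or_lt with h7 | h7
        · have h8 : 3 ∣ p := by
            rw [show p = 2 ^ (2 * m) - 1 by rw [← h7]; omega]
            exact (Nat.pow_sub_one_dvd_pow_sub_one 2 (dvd_mul_right 2 m))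
          rw [Nat.prime_dvd_prime_iff_eq Nat.prime_three hp] at h8
          have : 2 ^ 3 ≤ 2 ^ (k + 1) := Nat.pow_le_pow_right two_pos (by omega)
          omega
        · exact r2 (k + 1) (by omega) h7 (by rw [h, show p = 2 ^ (k + 1) - 1 by omega])
      · exact h4 r _ hr r3 (by convert h using 1; rw [pow_succ] at hk; omega)
      · exact absurd (hk ▸ h) (h2 r _ hr r3)
    have h7 : 1 < 2 ^ k := Nat.one_lt_two_pow hk2
    have := Nat.le_of_dvd (by omega) (h5.trans (Nat.pow_sub_one_dvd_pow_sub_one 2 h6))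
    rw [pow_succ] at hk
    omega

universe u

/-- The classification of CIT-groups, in the form needed here. -/
def CitOrders : Prop := ∀ (X : Type u) [Group X] [Finite X], IsCIT X → Cfsg.pCore 2 X = ⊥ →
  SylTI X ∨ (∃ N : Subgroup X, N.index = 2) ∨ ExcOrder (Nat.card X)

theorem nonempty_equiv_psl2_of_primeGraph (hmain : CitOrders.{u}) {F : Type*} [Field F] [Fintype F]
    (m : ℕ) (hm : 4 ≤ m) (hF : Fintype.card F = 2 ^ m) {G : Type u} [Group G] [Finite G]
    (h1 : ∀ r : ℕ, r.Prime →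
      (r ∣ Nat.card (Matrix.ProjectiveSpecialLinearGroup (Fin 2) F) ↔ r ∣ Nat.card G))
    (h2 : ∀ r s : ℕ, r.Prime → s.Prime → r ≠ s → (∃ y : G, orderOf y = r * s) →
      ∃ x : Matrix.ProjectiveSpecialLinearGroup (Fin 2) F, orderOf x = r * s) :
    Nonempty (G ⧸ Cfsg.pCore 2 G ≃* Matrix.ProjectiveSpecialLinearGroup (Fin 2) F) := by
  have hq2 : 2 ∣ 2 ^ m := dvd_pow_self 2 (by omega)
  have hq : 2 ^ 4 ≤ 2 ^ m := Nat.pow_le_pow_right two_pos hm
  have g1 : Nat.gcd (2 ^ m - 1) 2 = 1 := Nat.coprime_two_right.2 (Nat.odd_iff.2 (by omega))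
  have g2 : Nat.gcd (2 ^ m + 1) 2 = 1 := Nat.coprime_two_right.2 (Nat.odd_iff.2 (by omega))
  have hc := H3.card_psl2_mul (F := F)
  rw [hF, g1, mul_one] at hc
  rw [hc] at h1
  have hch : ringChar F = 2 := FiniteField.even_card_iff_char_two.2 (by rw [hF]; omega)
  have h3 : ∀ r s : ℕ, r.Prime → s.Prime → r ≠ s → (∃ y : G, orderOf y = r * s) →
      r * s ∣ 2 ^ m - 1 ∨ r * s ∣ 2 ^ m + 1 := fun r s hr hs hrs h => by
    have h4 : r * s ∈ Set.range (orderOf : Matrix.ProjectiveSpecialLinearGroup (Fin 2) F → ℕ) :=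
      h2 r s hr hs hrs h
    rw [H6.spec_psl2, Set.mem_ofPred_eq, hch, hF, g1, g2, Nat.div_one, Nat.div_one] at h4
    refine h4.resolve_left fun h => ?_
    have := Nat.le_of_dvd two_pos h
    have := hr.two_le
    have := hs.two_le
    nlinarith
  have h4 : ∀ s : ℕ, s.Prime → 2 ≠ s → ¬ ∃ y : G, orderOf y = 2 * s := fun s hs h2s h => by
    rcases h3 2 s Nat.prime_two hs h2s h with h | h <;>
    · have := dvd_of_mul_right_dvd h
      omega
  have hG := isCIT_of_primeGraph h4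
  have he : 2 ∣ Nat.card G := (h1 2 Nat.prime_two).1 ((hq2.mul_right _).mul_right _)
  obtain ⟨r, hr, hrq⟩ := Nat.exists_prime_and_dvd (n := 2 ^ m - 1) (by omega)
  obtain ⟨s, hs, hsq⟩ := Nat.exists_prime_and_dvd (n := 2 ^ m + 1) (by omega)
  have h5 : ∀ r : ℕ, r.Prime → r ∣ 2 ^ m - 1 → ¬ r ∣ 2 ^ m + 1 := fun r hr a b => by
    have := Nat.dvd_sub b a
    rw [show 2 ^ m + 1 - (2 ^ m - 1) = 2 by omega,
      Nat.prime_dvd_prime_iff_eq hr Nat.prime_two] at this
    subst this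
    omega
  have hrs : r ≠ s := by rintro rfl; exact h5 r hr hrq hsq
  have hns : ¬ Group.IsSolvable G := by
    refine not_isSolvable_of_coclique hr hs (by rintro rfl; omega) (by rintro rfl; omega)
      hrs he ((h1 r hr).1 ((hrq.mul_left _).mul_right _)) ((h1 s hs).1 (hsq.mul_left _)) h4
      fun h => ?_
    rcases h3 r s hr hs hrs h with h | h
    · exact h5 s hs (dvd_of_mul_left_dvd h) hsq
    · exact h5 r hr hrq (dvd_of_mul_right_dvd h)
  obtain ⟨he', hns'⟩ := quot_even_of_cit hG (even_iff_two_dvd.2 he) hns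
  have hG' := hG.quotient _ (H7.pCore_isPGroup 2 G)
  obtain ⟨he'', hns''⟩ := oddGen_even hG' he' hns'
  have h6 : ∀ p : ℕ, p.Prime → p ≠ 2 →
      (p ∣ Nat.card (oddGen (G ⧸ Cfsg.pCore 2 G)) ↔ p ∣ 2 ^ (2 * m) - 1) := fun p hp hp2 => by
    rw [dvd_card_oddGen hp hp2, dvd_card_quot_pCore hp hp2, ← h1 p hp, psl2_prime_dvd hp hp2]
  have hT : SylTI (oddGen (G ⧸ Cfsg.pCore 2 G)) := by
    rcases hmain _ (hG'.subgroup (oddGen _))
      (pCore_eq_bot_of_normal (pCore_quotient_pCore 2 G) _) with h | ⟨N, hN⟩ | h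
    · exact h
    · exact absurd hN (index_ne_two_oddGen N)
    · exact absurd h (not_excOrder hm h6)
  have htop := eq_top_of_cit_ti hG' _ isPGroup_quot_oddGen hT he'' hns''
  rcases ti_ident (hG'.subgroup _) hT he'' hns'' with ⟨n, hn, hcn, h⟩ | ⟨m', hm', hc, -⟩
  · have h7 : 2 * m ∣ 2 * n := dvd_of_primes (by omega) (by omega) fun p hp a _ => by
      have b := ne_two_of_dvd_pow_sub_one (by omega) a
      rwa [← h6 p hp b, hcn, psl2_prime_dvd hp b] at a
    have h8 := Nat.le_of_dvd (by omega) h7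
    have h9 : 2 * n ∣ 2 * m := dvd_of_primes (by omega) (by omega) fun p hp a _ => by
      have b := ne_two_of_dvd_pow_sub_one (by omega) a
      rwa [← h6 p hp b, hcn, psl2_prime_dvd hp b]
    obtain rfl : m = n := by have := Nat.dvd_antisymm h7 h9; omega
    obtain ⟨e⟩ := h F hF
    exact ⟨(((MulEquiv.subgroupCongr htop).trans topEquiv).symm).trans e⟩
  · exfalso
    refine not_three_dvd_suzuki m' ?_
    rw [← hc, h6 3 Nat.prime_three (by norm_num), ← psl2_prime_dvd Nat.prime_three (by norm_num)]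
    exact three_dvd_psl2

end Cfsg.Agent.H2
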