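import Cfsg.Agent.H2.PfB

/-! Split BN-pairs of rank one and odd degree: the class of central involutions. -/

set_option autoImplicit false
set_option linter.unusedSectionVars false

namespace Cfsg.Agent.H2.Pf

open MulAction Subgroup H7 Hig

theorem card_of_rel {α β : Type*} [Finite α] [Finite β] (r : α → β → Prop) (h : ∀ a, ∃! b, r a b)
    {m : ℕ} (hm : ∀ b, Nat.card {a // r a b} = m) : Nat.card α = Nat.card β * m := by
  have := Fintype.ofFinite β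
  choose f hf hf' using h
  rw [← Nat.card_congr (Equiv.sigmaFiberEquiv f), Nat.card_sigma, Finset.sum_congr rfl fun b _ =>
    (Nat.card_congr (Equiv.subtypeEquivRight fun a => ⟨fun e => e ▸ hf a, fun e => (hf' a b e).symm⟩)).trans
      (hm b), Finset.sum_const, Finset.card_univ, Nat.card_eq_fintype_card, smul_eq_mul]

theorem card_ne_add_one {α : Type*} [Finite α] {p : α → Prop} {a : α} (h : p a) :
    Nat.card {x // p x ∧ x ≠ a} + 1 = Nat.card {x // p x} := by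
  have := card_sdiff_add (S := {x | p x}) (T := {a}) (by simpa using h)
  rwa [Nat.card_unique (α := ({a} : Set α))] at this

theorem conj_ne_one' {G : Type*} [Group G] {u : G} (h : u ≠ 1) (g : G) : g⁻¹ * u * g ≠ 1 := by
  simpa using conj_ne_one h g⁻¹

theorem arith_A {q f n f' : ℕ} (hq : 2 < q) (hf : 2 ≤ f) (hf' : 2 ≤ f')
    (h1 : n = f + f * (q - 1) * (f' - 1)) (h2 : n = f' + f' * (q - 1) * (f - 1)) :
    n - 1 = (f - 1) * (q + (f - 1) * (q - 1)) := by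
  obtain ⟨q, rfl⟩ : ∃ m, q = m + 3 := ⟨q - 3, by omega⟩
  obtain ⟨f, rfl⟩ : ∃ m, f = m + 1 := ⟨f - 1, by omega⟩
  obtain ⟨f', rfl⟩ : ∃ m, f' = m + 1 := ⟨f' - 1, by omega⟩
  simp only [Nat.add_sub_cancel, show q + 3 - 1 = q + 2 from rfl] at *
  obtain rfl : f = f' := Nat.eq_of_mul_eq_mul_right (show 0 < q + 1 by omega) (by nlinarith)
  rw [h1, Nat.sub_eq_iff_eq_add (by omega)]; ring

theorem eq_one_of_odd_dvd {m j : ℕ} (h : Odd m) (hd : m ∣ 2 ^ j) : m = 1 :=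
  Nat.eq_one_of_dvd_coprimes (h.coprime_two_right.pow_right j) dvd_rfl hd

theorem arith_B {e σ τ g N m₁ m₂ : ℕ} (he : e ≠ 0) (hg : g ≠ 0) (h₁ : Odd m₁) (h₂ : Odd m₂)
    (h1 : 2 ^ σ = N * (2 ^ e + g * (2 ^ e - 1))) (h2 : g * (2 ^ τ * m₁) = N * m₂) :
    N = 2 ^ e * 2 ^ τ ∧ (2 ^ e) ^ 3 * 2 ^ τ ≤ 2 ^ σ := by
  obtain ⟨v, m, hm, rfl⟩ := Nat.exists_eq_two_pow_mul_odd hg
  obtain ⟨i, -, rfl⟩ := (Nat.dvd_prime_pow Nat.prime_two).1 (Dvd.intro _ h1.symm)
  have hq : Odd (2 ^ e - 1) := Nat.Even.sub_odd Nat.one_le_two_pow (Nat.even_pow.2 ⟨even_two, he⟩) odd_one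
  have hd : 2 ^ e + 2 ^ v * m * (2 ^ e - 1) ∣ 2 ^ σ := Dvd.intro_left _ h1.symm
  have := hm.pos
  have := hq.pos
  obtain rfl : v = e := by
    rcases lt_trichotomy v e with h | h | h
    · obtain ⟨d, rfl⟩ := Nat.exists_eq_add_of_lt h
      have := eq_one_of_odd_dvd (m := 2 * 2 ^ d + m * (2 ^ (v + d + 1) - 1))
        ((even_two_mul _).add_odd (hm.mul hq)) (Dvd.dvd.trans ⟨2 ^ v, by
          generalize 2 ^ (v + d + 1) - 1 = x; ring⟩ hd)
      have := Nat.two_pow_pos d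
      omega
    · exact h
    · obtain ⟨d, rfl⟩ := Nat.exists_eq_add_of_lt h
      have := eq_one_of_odd_dvd (m := 2 * (2 ^ d * m * (2 ^ e - 1)) + 1) (odd_two_mul_add_one _)
        (Dvd.dvd.trans ⟨2 ^ e, by generalize 2 ^ e - 1 = x; ring⟩ hd)
      have : 0 < 2 ^ d * m * (2 ^ e - 1) := by positivity
      omega
  have h3 : 2 ^ i = 2 ^ v * 2 ^ τ := by
    rw [← pow_add]
    refine Nat.dvd_antisymm ((hm.mul h₁).coprime_two_left.pow_left i |>.dvd_of_dvd_mul_right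
      ⟨m₂, by rw [← h2]; ring⟩) (h₂.coprime_two_left.pow_left _ |>.dvd_of_dvd_mul_right
      ⟨m * m₁, by rw [← h2]; ring⟩)
  refine ⟨h3, ?_⟩
  rw [h1, h3]
  obtain ⟨x, hx⟩ : ∃ x, 2 ^ v = x + 1 := ⟨2 ^ v - 1, by omega⟩
  obtain ⟨m, rfl⟩ : ∃ y, m = y + 1 := ⟨m - 1, by omega⟩
  rw [hx, Nat.add_sub_cancel]
  exact Nat.le.intro (k := (x + 1) ^ 2 * 2 ^ τ * m * x) (by ring)

/-- A doubly transitive group whose point stabiliser has a normal Sylow `2`-subgroup `S` of the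
group, with `S × O` transitive on the other points. -/
structure P0 (G Ω : Type*) [Group G] [MulAction G Ω] where
  /-- the point at infinity -/
  a : Ω
  /-- the origin -/
  b : Ω
  hab : a ≠ b
  /-- the Sylow subgroup -/
  S : Subgroup G
  /-- the odd part -/
  O : Subgroup G
  fixS : ∀ x ∈ S, x • a = a
  fixO : ∀ x ∈ O, x • a = a
  norm : ∀ g : G, g • a = a → ∀ x ∈ S, g * x * g⁻¹ ∈ S
  two : IsPGroup 2 S
  odd : Odd (Nat.card O)
  comm : ∀ x ∈ S, ∀ y ∈ O, x * y = y * x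
  trans : ∀ p, p ≠ a → ∃ x ∈ S, ∃ y ∈ O, (x * y) • b = p
  to_b : ∃ g : G, g • a = b
  index : Odd S.index
  faith : ∀ g : G, (∀ p : Ω, g • p = p) → g = 1

variable {G Ω : Type*} [Group G] [MulAction G Ω] [Finite G]

namespace P0
variable (c : P0 G Ω)

theorem exists_to (p : Ω) : ∃ g : G, g • c.a = p := by
  by_cases h : p = c.a
  · exact ⟨1, by rw [one_smul, h]⟩
  obtain ⟨x, -, y, -, e⟩ := c.trans p h
  obtain ⟨g, hg⟩ := c.to_b
  exact ⟨x * y * g, by rw [mul_smul, hg, e]⟩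

include c in
theorem finite_pts : Finite Ω := Finite.of_surjective (fun g : G => g • c.a) c.exists_to

theorem pt_ne {g : G} (h : g • c.a = c.a) {p : Ω} (hp : p ≠ c.a) : g • p ≠ c.a := fun e =>
  hp ((smul_left_cancel_iff g).1 (e.trans h.symm))

theorem fixU {x y : G} (hx : x ∈ c.S) (hy : y ∈ c.O) : (x * y) • c.a = c.a := by
  rw [mul_smul, c.fixO y hy, c.fixS x hx]

theorem inv_mem_S {u : G} (u2 : u * u = 1) (h : u • c.a = c.a) : u ∈ c.S := by
  have : Fact (Nat.Prime 2) := ⟨Nat.prime_two⟩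
  have h1 : IsPGroup 2 ↥(c.S ⊔ zpowers u) := .to_sup_of_normal_left' c.two
    (isPGroup_zpowers (k := 1) (by rwa [pow_one, _root_.sq])) (zpowers_le.2 (mem_norm_of_conj (c.norm u h)))
  obtain ⟨j, hj⟩ := (h1.index (c.S.subgroupOf _))
  have := eq_one_of_odd_dvd (c.index.of_dvd_nat (relIndex_dvd_index_of_le le_sup_left)) hj.dvd
  exact relIndex_eq_one.1 this (mem_sup_right (mem_zpowers u))

theorem eq_one_of_cent {y : G} (hy : y ∈ c.S) (h : ∀ x ∈ c.S, x * y = y * x) {o : Ω} (ho : o ≠ c.a)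
    (e : y • o = o) : y = 1 := c.faith y fun p => by
  have key : ∀ x ∈ c.S, ∀ z ∈ c.O, ∀ p : Ω, y • (x * z) • p = (x * z) • y • p := fun x hx z hz p => by
    rw [← mul_smul, ← mul_smul, ← mul_assoc, ← h x hx, mul_assoc, c.comm y hy z hz, mul_assoc]
  by_cases hp : p = c.a
  · exact hp ▸ c.fixS y hy
  obtain ⟨x, hx, z, hz, rfl⟩ := c.trans o ho
  obtain ⟨x', hx', z', hz', rfl⟩ := c.trans p hp
  rw [key x hx z hz, smul_left_cancel_iff] at e
  rw [key x' hx' z' hz', e]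

/-- central involutions of `S` -/
def Z : Subgroup G where
  carrier := {z | z ∈ c.S ∧ z * z = 1 ∧ ∀ x ∈ c.S, x * z = z * x}
  mul_mem' {x y} hx hy := ⟨mul_mem hx.1 hy.1, by
    rw [mul_assoc, ← mul_assoc y, hx.2.2 y hy.1, mul_assoc, hy.2.1, mul_one, hx.2.1], fun z hz => by
    rw [← mul_assoc, hx.2.2 z hz, mul_assoc, hy.2.2 z hz, mul_assoc]⟩
  one_mem' := ⟨one_mem _, mul_one 1, by simp⟩
  inv_mem' {x} hx := by rwa [Set.mem_setOf_eq, inv_eq_of_sq hx.2.1]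

theorem Z_le : c.Z ≤ c.S := fun _ h => h.1

theorem conj_Z {g z : G} (hg : g • c.a = c.a) (hz : z ∈ c.Z) : g * z * g⁻¹ ∈ c.Z :=
  ⟨c.norm g hg z hz.1, conj_sq hz.2.1 g, fun x hx => by
    calc _ = g * (g⁻¹ * x * g⁻¹⁻¹ * z) * g⁻¹ := by group
      _ = _ := by rw [hz.2.2 _ (c.norm _ (inv_smul_eq_iff.2 hg.symm) x hx)]; group⟩

theorem exists_Z : ∃ z ∈ c.Z, z ≠ 1 := by
  have : Fact (Nat.Prime 2) := ⟨Nat.prime_two⟩
  obtain ⟨g, hg⟩ := c.to_b
  obtain ⟨x, hx, y, hy, e⟩ := c.trans (g⁻¹ • c.a) fun e => c.hab (by rw [← hg, ← inv_smul_eq_iff, e])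
  have h1 : (g * (x * y)) • c.a = c.b := by rw [mul_smul, c.fixU hx hy, hg]
  have h2 : (g * (x * y)) • c.b = c.a := by rw [mul_smul, e, smul_inv_smul]
  generalize g * (x * y) = w at h1 h2
  have h3 : 2 ∣ orderOf w := even_iff_two_dvd.1 (Nat.not_odd_iff_even.1 fun ⟨k, hk⟩ => c.hab (by
    have : ∀ n : ℕ, (w * w) ^ n • c.b = c.b := fun n => (stabilizer G c.b).pow_mem
      (show (w * w) • c.b = c.b by rw [mul_smul, h2, h1]) n
    rw [← this k, ← h1, ← mul_smul, ← _root_.sq, ← pow_mul, ← pow_succ, ← hk, pow_orderOf_eq_one,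
      one_smul]))
  obtain ⟨z, hz, h, h'⟩ := exists_central_prime c.two.isNilpotent Nat.prime_two
    (c.index.coprime_two_left.dvd_of_dvd_mul_right
      (c.S.card_mul_index ▸ h3.trans (orderOf_dvd_natCard w)))
  exact ⟨z, ⟨hz, by rw [← _root_.sq, ← h, pow_orderOf_eq_one], h'⟩, fun e => by simp [e] at h⟩

/-- the conjugates of the central involutions -/
def Zc (w : G) : Prop := w ≠ 1 ∧ ∃ g : G, g⁻¹ * w * g ∈ c.Z

variable {c}

theorem Zc.of_mem {z : G} (hz : z ∈ c.Z) (z1 : z ≠ 1) : c.Zc z := ⟨z1, 1, by simpa using hz⟩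

theorem Zc.conj {w : G} (h : c.Zc w) (g : G) : c.Zc (g * w * g⁻¹) :=
  let ⟨h1, k, hk⟩ := h; ⟨conj_ne_one h1 g, g * k, by simpa [mul_assoc] using hk⟩

theorem Zc.sq {w : G} (h : c.Zc w) : w * w = 1 := by
  obtain ⟨-, k, hk⟩ := h
  simpa [mul_assoc] using conj_sq hk.2.1 k

theorem Zc.conj' {w u : G} (h : c.Zc w) (u2 : u * u = 1) : c.Zc (u * w * u) := by
  simpa [inv_eq_of_sq u2] using h.conj u

theorem Zc.exists_fix {w : G} (h : c.Zc w) : ∃ p : Ω, w • p = p :=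
  let ⟨_, k, hk⟩ := h
  ⟨k • c.a, by rw [← inv_smul_eq_iff, ← mul_smul, ← mul_smul, c.fixS _ hk.1]⟩

theorem Zc.mem_of_fix {w g : G} (h : c.Zc w) (e : w • g • c.a = g • c.a) : g⁻¹ * w * g ∈ c.Z := by
  obtain ⟨h1, k, hk⟩ := h
  have : (k⁻¹ * g) • c.a = c.a := by
    by_contra h
    exact conj_ne_one' h1 k (c.eq_one_of_cent hk.1 hk.2.2 h (by
      simp only [mul_smul, smul_inv_smul, e]))
  simpa [mul_assoc] using c.conj_Z (inv_smul_eq_iff.2 this.symm) hk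

theorem Zc.mem {w : G} (h : c.Zc w) (e : w • c.a = c.a) : w ∈ c.Z := by
  simpa using h.mem_of_fix (g := 1) (by simpa using e)

theorem Zc.fix_unique {w : G} (h : c.Zc w) {p q : Ω} (hp : w • p = p) (hq : w • q = q) : p = q := by
  obtain ⟨g, rfl⟩ := c.exists_to p
  have hk := h.mem_of_fix hp
  by_contra e
  exact conj_ne_one' h.1 g (c.eq_one_of_cent hk.1 hk.2.2 (o := g⁻¹ • q)
    (fun e' => e (by rw [← e', smul_inv_smul])) (by simp only [mul_smul, smul_inv_smul, hq]))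

theorem Zc.fix_of_comm {w g : G} (h : c.Zc w) {p : Ω} (hp : w • p = p) (e : g * w = w * g) :
    g • p = p := h.fix_unique (by rw [← mul_smul, ← e, mul_smul, hp]) hp

theorem Zc.comm {w u : G} (h : c.Zc w) (u2 : u * u = 1) {p : Ω} (hp : w • p = p) (hu : u • p = p) :
    u * w = w * u := by
  obtain ⟨g, rfl⟩ := c.exists_to p
  have := (h.mem_of_fix hp).2.2 _ (c.inv_mem_S (conj_sq u2 g⁻¹) (by
    rw [inv_inv, mul_smul, mul_smul, hu, inv_smul_smul]))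
  calc _ = g * (g⁻¹ * u * g⁻¹⁻¹ * (g⁻¹ * w * g)) * g⁻¹ := by group
    _ = _ := by rw [this]; group

theorem Zc.mul {w w' : G} (h : c.Zc w) (h' : c.Zc w') {p : Ω} (hp : w • p = p) (hp' : w' • p = p)
    (h1 : w * w' ≠ 1) : c.Zc (w * w') := by
  obtain ⟨g, rfl⟩ := c.exists_to p
  exact ⟨h1, g, by simpa [mul_assoc] using mul_mem (h.mem_of_fix hp) (h'.mem_of_fix hp')⟩

theorem Zc.dih {z v : G} (h : c.Zc z) (h' : c.Zc v) (k : ℕ) : c.Zc ((z * v) ^ k * z) := by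
  have e : ∀ m : ℕ, (z * v) ^ m * z = z * ((z * v) ^ m)⁻¹ := fun m => by
    rw [← (dih_pow h.sq h'.sq m).1, ← mul_assoc, ← mul_assoc, h.sq, one_mul]
  rcases Nat.even_or_odd' k with ⟨m, rfl | rfl⟩
  · rw [two_mul, pow_add, mul_assoc, e, ← mul_assoc]; exact h.conj _
  · rw [show 2 * m + 1 = m + 1 + m by ring, pow_add, mul_assoc, e, ← mul_assoc, pow_succ,
      mul_assoc _ (z * v)]
    exact (h'.conj' h.sq).conj _

theorem Zc.odd_mul {z v : G} (h : c.Zc z) (h' : c.Zc v) {p q : Ω} (hp : z • p = p) (hq : v • q = q)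
    (hne : p ≠ q) : Odd (orderOf (z * v)) := by
  by_contra ho
  obtain ⟨k, h1, -, h3, h4⟩ := dih_even h.sq h'.sq ho
  have h5 := h.fix_of_comm hp h3
  have := (h.dih h' k).mul h (by rw [mul_smul, hp, h5]) hp (by rwa [mul_assoc, h.sq, mul_one])
  rw [mul_assoc, h.sq, mul_one] at this
  exact hne (this.fix_unique h5 (h'.fix_of_comm hq h4))

theorem Zc.exists_conj {z v : G} (h : c.Zc z) (h' : c.Zc v) {p q : Ω} (hp : z • p = p)
    (hq : v • q = q) (hne : p ≠ q) : ∃ w, c.Zc w ∧ w • p = q ∧ w * z * w = v ∧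
      ∀ g, Commute g z → Commute g v → Commute g w := by
  obtain ⟨k, h1, h2⟩ := dih_odd h.sq h'.sq (h.odd_mul h' hp hq hne)
  refine ⟨_, h.dih h' k, h'.fix_unique ?_ hq, h2, fun g a b => ((a.mul_right b).pow_right k).mul_right a⟩
  nth_rw 1 [← h2]
  rw [← mul_smul, mul_assoc, h1, mul_one, mul_smul, hp]

theorem Zc.inj {z u u' : G} (h : c.Zc z) {p : Ω} (hp : z • p = p) (hu : c.Zc u) (up : u • p ≠ p)
    (hu' : c.Zc u') (up' : u' • p ≠ p) (e : u * z * u = u' * z * u') : u = u' := by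
  let T := {u : G // c.Zc u ∧ u • p ≠ p}
  let φ : T → T := fun u => ⟨u.1 * z * u.1, h.conj' u.2.1.sq, fun e => u.2.2 (by
    rw [mul_smul, mul_smul, ← eq_inv_smul_iff, inv_eq_of_sq u.2.1.sq] at e
    exact h.fix_unique e hp)⟩
  have hs : Function.Surjective φ := fun v => by
    obtain ⟨q, hq⟩ := v.2.1.exists_fix
    have hne : p ≠ q := fun e => v.2.2 (e ▸ hq)
    obtain ⟨w, h1, h2, h3, -⟩ := h.exists_conj v.2.1 hp hq hne
    exact ⟨⟨w, h1, h2 ▸ hne.symm⟩, Subtype.ext h3⟩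
  exact congrArg Subtype.val (Finite.injective_iff_surjective.2 hs (a₁ := ⟨u, hu, up⟩)
    (a₂ := ⟨u', hu', up'⟩) (Subtype.ext e))

variable (c) in
theorem exists_Zc (p : Ω) : ∃ z, c.Zc z ∧ z • p = p := by
  obtain ⟨g, rfl⟩ := c.exists_to p
  obtain ⟨z, hz, z1⟩ := c.exists_Z
  exact ⟨_, (Zc.of_mem hz z1).conj g, by rw [mul_smul, mul_smul, inv_smul_smul, c.fixS z hz.1]⟩

variable (c) in
theorem exists_swap {p q : Ω} (h : p ≠ q) : ∃ w, c.Zc w ∧ w • p = q := by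
  obtain ⟨z, hz, hp⟩ := c.exists_Zc p
  obtain ⟨v, hv, hq⟩ := c.exists_Zc q
  obtain ⟨w, h1, h2, -⟩ := hz.exists_conj hv hp hq h
  exact ⟨w, h1, h2⟩

theorem Zc.smul_smul {w : G} (h : c.Zc w) (p : Ω) : w • w • p = p := by
  rw [← mul_smul, h.sq, one_smul]

theorem Zc.comm_of_swap {w x : G} (h : c.Zc w) (x2 : x * x = 1) {p : Ω} (hw : w • p ≠ p)
    (h1 : x • p = p) (h2 : x • w • p = w • p) : x * w = w * x := by
  obtain ⟨z, hz, hp⟩ := c.exists_Zc p
  have e1 := hz.comm x2 hp h1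
  have e2 := (hz.conj' h.sq).comm x2 (by rw [mul_smul, mul_smul, h.smul_smul, hp]) h2
  rw [← mul_inv_eq_iff_eq_mul, inv_eq_of_sq x2]
  refine hz.inj hp (h.conj' x2) (by rwa [mul_smul, mul_smul, h1, h2]) h hw ?_
  calc _ = x * w * (x * z) * x * w * x := by group
    _ = x * (w * z * w) * x := by rw [e1, mul_assoc (x * w), mul_assoc z, x2]; group
    _ = _ := by rw [e2, mul_assoc, x2, mul_one]

variable (c)

theorem existsUnique_swap {s : G} (s2 : s * s = 1) {p : Ω} (hp : s • p ≠ p) :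
    ∃! w : {w // c.Zc w ∧ w * s = s * w}, w.1 • p = s • p := by
  obtain ⟨z, hz, hzp⟩ := c.exists_Zc p
  have ss : ∀ q : Ω, s • s • q = q := fun q => by rw [← mul_smul, s2, one_smul]
  obtain ⟨w, h1, h2, h3, -⟩ := hz.exists_conj (hz.conj' s2) hzp (q := s • p)
    (by rw [mul_smul, mul_smul, ss, hzp]) hp.symm
  have h4 : w • s • p = p := by rw [← h2, h1.smul_smul]
  have h5 : w * s = s * w := by
    rw [← inv_mul_eq_iff_eq_mul, inv_eq_of_sq s2, ← mul_assoc]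
    refine hz.inj hzp (h1.conj' s2) (by rwa [mul_smul, mul_smul, h4]) h1 (h2 ▸ hp) ?_
    calc _ = s * (w * (s * z * s) * w) * s := by group
      _ = _ := by rw [← h3, ← mul_assoc w, ← mul_assoc w, h1.sq, mul_assoc _ w w, h1.sq, h3]; group
  refine ⟨⟨w, h1, h5⟩, h2, fun ⟨v, hv, e⟩ h6 => Subtype.ext ?_⟩
  replace h6 : v • p = s • p := h6
  have h7 : Commute (s * w) v := hv.comm_of_swap (by
    rw [mul_assoc, ← mul_assoc w, h5, mul_assoc, h1.sq, mul_one, s2]) (h6 ▸ hp)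
    (by rw [mul_smul, h2, ss]) (by rw [h6, mul_smul, h4])
  have h8 : Commute w v := by
    simpa [← mul_assoc, s2] using (Commute.symm e).mul_left h7
  obtain ⟨o, ho⟩ := h1.exists_fix
  by_contra h9
  have h10 := hv.mul h1 (h1.fix_of_comm ho h8.symm) ho fun e' =>
    h9 ((eq_inv_of_mul_eq_one_left e').trans (inv_eq_of_sq h1.sq))
  exact hp (by rw [← h2, h10.fix_unique (p := p) (q := o) (by rw [mul_smul, h2, ← h6, hv.smul_smul])
    (by rw [mul_smul, ho, h1.fix_of_comm ho h8.symm]), ho])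

theorem card_cent {s : G} (s2 : s * s = 1) : Nat.card {w // c.Zc w ∧ w * s = s * w} =
    Nat.card {p : Ω // s • p = p} * (Nat.card c.Z - 1) := by
  have := c.finite_pts
  refine card_of_rel (fun w p => w.1 • p.1 = p.1) (fun w => ?_) fun p => ?_
  · obtain ⟨o, ho⟩ := w.2.1.exists_fix
    exact ⟨⟨o, w.2.1.fix_of_comm ho w.2.2.symm⟩, ho, fun p h => Subtype.ext (w.2.1.fix_unique h ho)⟩
  · obtain ⟨p, hp⟩ := p
    obtain ⟨g, rfl⟩ := c.exists_to p
    rw [eq_tsub_of_add_eq (card_ne_add_one (p := (· ∈ c.Z)) (one_mem _)).symm.symm |>.symm]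
    refine Nat.card_eq_of_bijective (fun w => ⟨g⁻¹ * w.1.1 * g, w.1.2.1.mem_of_fix w.2,
      conj_ne_one' w.1.2.1.1 g⟩) ⟨fun w w' e => Subtype.ext (Subtype.ext (by
        simpa using e)), fun z => ?_⟩
    have h1 := (Zc.of_mem z.2.1 z.2.2).conj g
    have h2 : (g * z * g⁻¹) • g • c.a = g • c.a := by
      rw [mul_smul, mul_smul, inv_smul_smul, c.fixS _ z.2.1.1]
    exact ⟨⟨⟨_, h1, (h1.comm s2 h2 hp).symm⟩, h2⟩, Subtype.ext (by simp [mul_assoc])⟩

theorem card_pts {s z : G} (s2 : s * s = 1) (hz : c.Zc z) (hc : z * s = s * z) {p q : Ω}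
    (hpq : p ≠ q) (hp : s • p = p) (hq : s • q = q) : Nat.card Ω = Nat.card {p : Ω // s • p = p} +
      Nat.card {p : Ω // s • p = p} * (Nat.card c.Z - 1) * (Nat.card {p : Ω // (s * z) • p = p} - 1) := by
  classical
  have := c.finite_pts
  rw [← c.card_cent s2, ← Nat.card_congr (Equiv.sumCompl fun p : Ω => s • p = p), Nat.card_sum]
  congr 1
  refine card_of_rel (fun p w => w.1 • p.1 = s • p.1) (fun p => c.existsUnique_swap s2 p.2) ?_
  rintro ⟨w, hw, e⟩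
  obtain ⟨o, ho⟩ := hw.exists_fix
  have key : ∀ {z w : G} {o o' : Ω}, c.Zc z → c.Zc w → z * s = s * z → w * s = s * w → z • o = o →
      w • o' = o' → o ≠ o' → Nat.card {p : Ω // (s * z) • p = p} = Nat.card {p : Ω // (s * w) • p = p} :=
    fun {z w o o'} hz hw h1 h2 h3 h4 h5 => by
      obtain ⟨g, a, -, rfl, d⟩ := hz.exists_conj hw h3 h4 h5
      refine Nat.card_congr ((toPerm g).subtypeEquiv fun p => ?_)
      rw [toPerm_apply, ← mul_assoc, ← mul_assoc, (d s h1.symm h2.symm).eq, ← mul_smul, mul_assoc _ g g,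
        a.sq, mul_one, mul_assoc, mul_smul g, smul_left_cancel_iff]
  have h1 : Nat.card {p : Ω // (s * z) • p = p} = Nat.card {p : Ω // (s * w) • p = p} := by
    obtain ⟨o', ho'⟩ := hz.exists_fix
    by_cases h : o' = o
    · obtain ⟨r, hr, ro⟩ : ∃ r : Ω, s • r = r ∧ r ≠ o := by
        by_cases h : p = o
        exacts [⟨q, hq, h ▸ hpq.symm⟩, ⟨p, hp, h⟩]
      obtain ⟨v, hv, hvr⟩ := c.exists_Zc r
      have := (hv.comm s2 hvr hr).symm
      rw [key hz hv hc this ho' hvr (h ▸ ro.symm), key hv hw this e hvr ho ro]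
    · exact key hz hw hc e ho' ho h
  have h2 := hw.fix_of_comm ho e.symm
  have h3 : ∀ p : Ω, (s * w) • p = p ↔ w • p = s • p := fun p => by
    rw [mul_smul, ← eq_inv_smul_iff, inv_eq_of_sq s2]
  rw [h1, ← card_ne_add_one (p := fun p : Ω => (s * w) • p = p) (a := o) (by rw [h3, ho, h2]),
    Nat.add_sub_cancel]
  exact Nat.card_congr ((Equiv.subtypeSubtypeEquivSubtypeInter _ fun p : Ω => w • p = s • p).trans
    (Equiv.subtypeEquivRight fun p => ⟨fun h => ⟨(h3 p).2 h.2, fun e => h.1 (e ▸ h2)⟩, fun h =>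
      ⟨fun e => h.2 (hw.fix_unique (((h3 p).1 h.1).trans e) ho), (h3 p).1 h.1⟩⟩))

/-- the Sylow subgroup of the two point stabiliser -/
def T : Subgroup G := c.S ⊓ stabilizer G c.b

theorem ZT : c.Z ⊓ c.T = ⊥ := (eq_bot_iff_forall _).2 fun _ h =>
  c.eq_one_of_cent h.1.1 h.1.2.2 c.hab.symm h.2.2

theorem T_norm : c.T ≤ N[c.Z] := le_norm_of_conj fun x hx _ hz => c.conj_Z (c.fixS x hx.1) hz

theorem card_ZT : Nat.card ↥(c.Z ⊔ c.T) = Nat.card c.Z * Nat.card c.T :=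
  card_sup_of_inf_eq_bot c.T_norm c.ZT

theorem card_pairs (P : Ω → Prop) : Nat.card {x : c.S × c.O // P ((x.1 * x.2 : G) • c.b)} =
    Nat.card {p // P p ∧ p ≠ c.a} * (Nat.card c.T * Nat.card ↥(c.O ⊓ stabilizer G c.b)) := by
  have := c.finite_pts
  refine card_of_rel (fun x p => (x.1.1 * x.1.2 : G) • c.b = p.1) (fun x =>
    ⟨⟨_, x.2, c.pt_ne (c.fixU x.1.1.2 x.1.2.2) c.hab.symm⟩, rfl, fun p h => Subtype.ext h.symm⟩) ?_
  rintro ⟨p, hp, pa⟩
  obtain ⟨x, hx, y, hy, rfl⟩ := c.trans p pa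
  have e : ∀ x' ∈ c.S, ∀ y' : G, x * x' * (y * y') = x * y * (x' * y') := fun x' h y' => by
    rw [mul_assoc, ← mul_assoc x', c.comm x' h y hy]; group
  rw [← Nat.card_prod]
  symm
  have e' : ∀ u : c.T × ↥(c.O ⊓ stabilizer G c.b), (x * u.1 * (y * u.2)) • c.b = (x * y) • c.b :=
    fun u => by rw [e _ u.1.2.1, mul_smul, mul_smul (u.1 : G), u.2.2.2, u.1.2.2]
  refine Nat.card_eq_of_bijective (fun u => ⟨⟨(⟨x * u.1, mul_mem hx u.1.2.1⟩,
    ⟨y * u.2, mul_mem hy u.2.2.1⟩), (e' u).symm ▸ hp⟩, e' u⟩) ⟨fun u v h => ?_, fun u => ?_⟩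
  · simpa [Prod.ext_iff] using h
  obtain ⟨⟨⟨⟨x', hx'⟩, y', hy'⟩, h1⟩, h2⟩ := u
  have h3 := mul_mem (inv_mem hx) hx'
  have h4 := mul_mem (inv_mem hy) hy'
  have h5 : x⁻¹ * x' * (y⁻¹ * y') ∈ stabilizer G c.b := by
    rwa [mem_stabilizer_iff, ← smul_left_cancel_iff (x * y), ← mul_smul, ← e _ h3, mul_inv_cancel_left,
      mul_inv_cancel_left]
  have h6 : x⁻¹ * x' ∈ stabilizer G c.b := by
    obtain ⟨k, hk⟩ := c.two ⟨_, h3⟩
    obtain ⟨m, hm⟩ := exists_pow_eq_self_of_coprime (x := x⁻¹ * x') (n := Nat.card c.O)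
      ((c.odd.coprime_two_right.pow_right k).coprime_dvd_right
        (orderOf_dvd_of_pow_eq_one (congrArg Subtype.val hk)))
    have := pow_mem h5 (Nat.card c.O)
    rw [Commute.mul_pow (c.comm _ h3 _ h4), show (y⁻¹ * y') ^ Nat.card c.O = 1 from
      congrArg Subtype.val (pow_card_eq_one' (x := (⟨_, h4⟩ : c.O))), mul_one] at this
    exact hm ▸ pow_mem this m
  exact ⟨(⟨_, h3, h6⟩, ⟨_, h4, (mul_mem_cancel_left h6).1 h5⟩), by simp⟩

theorem key (hq : 2 < Nat.card c.Z) {s : G} (hs : s ∈ c.T) (s1 : s ≠ 1) (s2 : s * s = 1) :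
    Nat.card c.Z ^ 3 * Nat.card c.T ≤ Nat.card c.S ∧
      ∀ x ∈ c.S, x⁻¹ * s * x ∈ c.T → x ∈ c.Z ⊔ c.T := by
  have : Fact (Nat.Prime 2) := ⟨Nat.prime_two⟩
  have := c.finite_pts
  obtain ⟨z, hz, z1⟩ := c.exists_Z
  have hzc := Zc.of_mem hz z1
  have hc : z * s = s * z := (hz.2.2 s hs.1).symm
  have sa := c.fixS s hs.1
  have h1 := c.card_pts s2 hzc hc c.hab sa hs.2
  have two : ∀ {u : G} {p q : Ω}, p ≠ q → u • p = p → u • q = q → 2 ≤ Nat.card {p : Ω // u • p = p} :=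
    fun h a b => Finite.one_lt_card_iff_nontrivial.2 ⟨⟨_, a⟩, ⟨_, b⟩, fun e => h (congrArg Subtype.val e)⟩
  have h2 : 2 ≤ Nat.card {p : Ω // (s * z) • p = p} := by
    by_contra h
    rw [show Nat.card {p : Ω // (s * z) • p = p} - 1 = 0 by omega, mul_zero, add_zero] at h1
    exact s1 (c.faith s fun p => by
      obtain ⟨p, rfl⟩ := (Subtype.val_injective.bijective_of_nat_card_le h1.le).2 p
      exact p.2)
  obtain ⟨p, q, hpq⟩ := Finite.one_lt_card_iff_nontrivial.1 h2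
  have h3 := c.card_pts (s := s * z) (by rw [mul_assoc, ← mul_assoc z, hc, mul_assoc, hz.2.1, mul_one, s2])
    hzc (by rw [← mul_assoc, hc]) (Subtype.coe_ne_coe.2 hpq) p.2 q.2
  rw [mul_assoc s z z, hz.2.1, mul_one] at h3
  have h4 := arith_A hq (two c.hab sa hs.2) h2 h1 h3
  let A : Set G := {x | x ∈ c.S ∧ x⁻¹ * s * x ∈ c.T}
  have h5 := c.card_pairs fun _ => True
  have h6 := c.card_pairs fun p => s • p = p
  rw [Nat.card_congr (Equiv.subtypeUnivEquiv fun _ => trivial), Nat.card_prod,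
    eq_tsub_of_add_eq (card_ne_add_one (p := fun _ => True) trivial),
    Nat.card_congr (Equiv.subtypeUnivEquiv fun _ => trivial), h4] at h5
  rw [eq_tsub_of_add_eq (card_ne_add_one (p := fun p : Ω => s • p = p) sa),
    show Nat.card {x : c.S × c.O // s • (x.1 * x.2 : G) • c.b = (x.1 * x.2 : G) • c.b} =
      Nat.card A * Nat.card c.O by
    rw [← Nat.card_prod]
    have e : ∀ x ∈ c.S, ∀ y ∈ c.O, s • (x * y) • c.b = (x * y) • c.b ↔ x⁻¹ * s * x ∈ c.T :=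
      fun x hx y hy => by
        rw [c.comm x hx y hy, ← mul_smul, ← mul_assoc, c.comm s hs.1 y hy, mul_assoc, mul_smul,
          mul_smul y x, smul_left_cancel_iff, T, mem_inf, mem_stabilizer_iff, mul_assoc, mul_smul x⁻¹,
          inv_smul_eq_iff, and_iff_right (mul_mem (inv_mem hx) (mul_mem hs.1 hx))]
    exact Nat.card_eq_of_bijective (fun x => (⟨x.1.1, x.1.1.2, (e _ x.1.1.2 _ x.1.2.2).1 x.2⟩, x.1.2))
      ⟨fun u v h => Subtype.ext (Prod.ext (Subtype.ext (congrArg (·.1.1) h)) (congrArg (·.2) h)), fun u =>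
        ⟨⟨(⟨u.1, u.1.2.1⟩, u.2), (e _ u.1.2.1 _ u.2.2).2 u.1.2.2⟩, rfl⟩⟩] at h6
  obtain ⟨e, he⟩ := (c.two.to_le c.Z_le).exists_card_eq
  obtain ⟨σ, hσ⟩ := c.two.exists_card_eq
  obtain ⟨τ, hτ⟩ := (c.two.to_le (H := c.T) inf_le_left).exists_card_eq
  have h7 := two c.hab sa hs.2
  rw [he] at hq h5
  rw [hτ] at h6
  obtain ⟨h8, h9⟩ := arith_B (e := e) (σ := σ) (by rintro rfl; omega) (by omega)
    (odd_of_le c.odd inf_le_left) c.odd (Nat.eq_of_mul_eq_mul_right c.odd.pos (by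
      rw [← hσ, h5, mul_right_comm _ _ (Nat.card c.O), h6, hτ]; ring)) h6.symm
  refine ⟨by rwa [he, hτ, hσ], fun x hx h => ?_⟩
  have : ((c.Z ⊔ c.T : Subgroup G) : Set G) = A := Set.eq_of_subset_of_ncard_le (fun x hx => by
    obtain ⟨z, hz, y, hy, rfl⟩ := (mem_sup_of_norm c.T_norm).1 hx
    refine ⟨mul_mem hz.1 hy.1, ?_⟩
    rw [mul_inv_rev, mul_assoc, mul_assoc, ← mul_assoc s, hz.2.2 s hs.1, mul_assoc, inv_mul_cancel_left]
    exact mul_mem (inv_mem hy) (mul_mem hs hy)) (by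
    rw [← Nat.card_coe_set_eq, ← Nat.card_coe_set_eq, h8, ← he, ← hτ, ← c.card_ZT]; rfl)
  exact this.ge ⟨hx, h⟩

end P0

end Cfsg.Agent.H2.Pf
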