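import Cfsg.Agent.H2.PfA1

/-! Split BN-pairs of rank one and odd degree: two point stabilisers have odd order. -/

set_option autoImplicit false
set_option linter.unusedSectionVars false

namespace Cfsg.Agent.H2.Pf

open MulAction Subgroup H7 Hig

variable {G Ω : Type*} [Group G] [MulAction G Ω] [Finite G]

theorem exists_inv_pow {A : Subgroup G} (h : IsPGroup 2 A) {y : G} (hy : y ∈ A) (y1 : y ≠ 1) :
    ∃ k : ℕ, y ^ k ≠ 1 ∧ y ^ k * y ^ k = 1 := exists_half fun ho =>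
  let ⟨_, hk⟩ := h ⟨y, hy⟩
  y1 (orderOf_eq_one_iff.1 (eq_one_of_odd_dvd ho (orderOf_dvd_of_pow_eq_one (congrArg Subtype.val hk))))

theorem card_class_le {M A : Subgroup G} {x : G} (h : ∀ g ∈ M, g * x * g⁻¹ * x⁻¹ ∈ A) :
    Nat.card {y | ∃ g ∈ M, g * x * g⁻¹ = y} ≤ Nat.card A :=
  Nat.card_le_card_of_injective (fun y => (⟨y.1 * x⁻¹, let ⟨g, hg, e⟩ := y.2; e ▸ h g hg⟩ : A))
    fun _ _ e => Subtype.ext (mul_right_cancel (congrArg Subtype.val e))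

namespace P0
variable (c : P0 G Ω)

theorem exists_two [IsSimpleGroup G] : ∃ z ∈ c.Z, ∃ z' ∈ c.Z, z ≠ 1 ∧ z' ≠ 1 ∧ z ≠ z' := by
  have : Fact (Nat.Prime 2) := ⟨Nat.prime_two⟩
  obtain ⟨z, hz, z1⟩ := c.exists_Z
  by_contra! h
  have hc := Zc.of_mem hz z1
  have ho : orderOf z = 2 := orderOf_eq_prime (by rw [_root_.sq, hz.2.1]) z1
  obtain ⟨g, hg⟩ := c.to_b
  have h1 := H3.zStar_of_isIsolated ho (fun g e => h _ ((hc.conj g).mem
    (hc.fix_of_comm (c.fixS z hz.1) e.symm)) z hz (conj_ne_one z1 g) z1) g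
  have := pPrimeCore_characteristic 2 G
  rcases (inferInstance : (pPrimeCore 2 G).Normal).eq_bot_or_eq_top with e | e
  · rw [e, mem_bot, mul_inv_eq_one, mul_inv_eq_iff_eq_mul] at h1
    exact c.hab ((hc.fix_of_comm (c.fixS z hz.1) h1).symm.trans hg)
  · have := pPrimeCore_coprime 2 G
    rw [e, card_top] at this
    exact Nat.prime_two.ne_one (Nat.eq_one_of_dvd_coprimes this (ho ▸ orderOf_dvd_natCard z) dvd_rfl)

theorem two_lt [IsSimpleGroup G] : 2 < Nat.card c.Z := by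
  obtain ⟨z, hz, z', hz', h1, h2, h3⟩ := c.exists_two
  have := Fintype.ofFinite c.Z
  rw [Nat.card_eq_fintype_card, Fintype.two_lt_card_iff]
  exact ⟨1, ⟨z, hz⟩, ⟨z', hz'⟩, fun e => h1 (congrArg Subtype.val e).symm,
    fun e => h2 (congrArg Subtype.val e).symm, fun e => h3 (congrArg Subtype.val e)⟩

theorem exists_K {t z z' : G} (ht : c.Zc t) (ta : t • c.a = c.b) (hz : z ∈ c.Z) (z1 : z ≠ 1)
    (hz' : z' ∈ c.Z) (z1' : z' ≠ 1) : ∃ w, c.Zc w ∧ w • c.a = c.b ∧ t * w * z * (t * w)⁻¹ = z' := by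
  obtain ⟨w, h1, h2, h3, -⟩ := (Zc.of_mem hz z1).exists_conj ((Zc.of_mem hz' z1').conj' ht.sq)
    (c.fixS z hz.1) (q := c.b) (by rw [← ta, mul_smul, mul_smul, ht.smul_smul, c.fixS _ hz'.1]) c.hab
  refine ⟨w, h1, h2, ?_⟩
  rw [mul_inv_rev, inv_eq_of_sq h1.sq, ← mul_assoc, mul_assoc t, mul_assoc t, h3, ← mul_assoc,
    ← mul_assoc, ht.sq, one_mul, mul_inv_cancel_right]

variable {c} in
theorem Zc.mul_fix {t w : G} (ht : c.Zc t) (ta : t • c.a = c.b) (wa : w • c.a = c.b) :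
    (t * w) • c.a = c.a := by rw [mul_smul, wa, ← ta, ht.smul_smul]

variable {c} in
theorem Zc.comm_T {w y : G} (hw : c.Zc w) (wa : w • c.a = c.b) (hy : y ∈ c.T) (y2 : y * y = 1) :
    Commute y w := hw.comm_of_swap y2 (wa ▸ c.hab.symm) (c.fixS y hy.1) (wa ▸ hy.2)

theorem exists_K' {z z' : G} (hz : z ∈ c.Z) (z1 : z ≠ 1) (hz' : z' ∈ c.Z) (z1' : z' ≠ 1) :
    ∃ k : G, k • c.a = c.a ∧ (∀ y ∈ c.T, y * y = 1 → Commute y k) ∧ k * z * k⁻¹ = z' := by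
  obtain ⟨t, ht, ta⟩ := c.exists_swap c.hab
  obtain ⟨w, hw, wa, e⟩ := c.exists_K ht ta hz z1 hz' z1'
  exact ⟨_, ht.mul_fix ta wa, fun y hy y2 => (ht.comm_T ta hy y2).mul_right (hw.comm_T wa hy y2), e⟩

theorem norm_S {g : G} (hg : g • c.a = c.a) : g ∈ N[c.S] := mem_norm_of_conj (c.norm g hg)

variable (hq : 2 < Nat.card c.Z)
include hq

theorem T_eq {s s' : G} (hs : s ∈ c.T) (s1 : s ≠ 1) (hs' : s' ∈ c.T) (s1' : s' ≠ 1) : s = s' := by
  have : Fact (Nat.Prime 2) := ⟨Nat.prime_two⟩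
  have hT := c.two.to_le (H := c.T) inf_le_left
  have key : ∀ {s x}, s ∈ c.T → s ≠ 1 → s * s = 1 → x ∈ c.S → x⁻¹ * s * x ∈ c.T →
      ∃ z ∈ c.Z, ∃ y ∈ c.T, z * y = x := fun hs s1 s2 hx h =>
    (mem_sup_of_norm c.T_norm).1 ((c.key hq hs s1 s2).2 _ hx h)
  have key' : ∀ {s x}, s ∈ c.T → s ≠ 1 → s * s = 1 → x ∈ c.S → x * s = s * x →
      ∃ z ∈ c.Z, ∃ y ∈ c.T, z * y = x := fun hs s1 s2 hx h =>
    key hs s1 s2 hx (by rwa [mul_assoc, ← h, inv_mul_cancel_left])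
  obtain ⟨n, u1, u2⟩ := exists_inv_pow hT hs s1
  have hu := pow_mem hs n
  have big := (c.key hq hu u1 u2).1
  generalize s ^ n = u at u1 u2 hu
  have cz : ∀ {x}, x ∈ c.S → x ∈ C[c.S] → x ∈ c.Z := fun hx h => by
    obtain ⟨z, hz, y, hy, rfl⟩ := key' hu u1 u2 hx (h u hu.1).symm
    rwa [c.eq_one_of_cent hy.1 (fun x hx => mul_left_cancel (a := z) (by
      rw [← mul_assoc, ← hz.2.2 x hx, mul_assoc, h x hx, mul_assoc])) c.hab.symm hy.2, mul_one]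
  let P := ucn2 c.S
  have PS : P ≤ c.S := ucn2_le _
  have cP : ∀ {x y}, x ∈ P → y ∈ c.S → x * y * x⁻¹ * y⁻¹ ∈ c.Z := fun hx hy =>
    cz (mul_mem (mul_mem (mul_mem (PS hx) hy) (inv_mem (PS hx))) (inv_mem hy))
      ((mem_ucn2_iff.1 hx).2 _ hy)
  have ZP : c.Z ≤ P := fun z hz => center_le_ucn2 _ ⟨hz.1, hz.2.2⟩
  have nP : ∀ {g x}, g • c.a = c.a → x ∈ P → g * x * g⁻¹ ∈ P := fun hg hx =>
    conj_mem_of_norm (norm_le_norm_ucn2 _ (c.norm_S hg)) hx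
  have hZ : 0 < Nat.card c.Z := Nat.card_pos
  have hT0 : 0 < Nat.card c.T := Nat.card_pos
  have lt : Nat.card c.Z * Nat.card c.Z * Nat.card c.T < Nat.card c.S :=
    lt_of_lt_of_le (by rw [pow_succ, _root_.sq]; gcongr; nlinarith) big
  have PT : ∀ {y}, y ∈ P → y ∈ c.T → y = 1 := fun {y} hP hy => by
    by_contra y1
    obtain ⟨n, v1, v2⟩ := exists_inv_pow hT hy y1
    have h1 := card_class c.S (y ^ n)
    have h2 := card_class_le (M := c.S) (A := c.Z) (x := y ^ n) fun g hg => by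
      simpa [mul_assoc] using inv_mem (cP (pow_mem hP n) hg)
    have h3 := card_le_of_le' (A := c.S ⊓ C₁[y ^ n]) (B := c.Z ⊔ c.T) fun x hx =>
      (mem_sup_of_norm c.T_norm).2 (key' (pow_mem hy n) v1 v2 hx.1 (mem_cent1_iff.1 hx.2))
    rw [c.card_ZT] at h3
    exact lt.not_ge (h1 ▸ mul_assoc (Nat.card c.Z) _ _ ▸ Nat.mul_le_mul h2 h3)
  have PZ : ∀ {s x}, s ∈ c.T → s ≠ 1 → s * s = 1 → x ∈ P → x * s = s * x → x ∈ c.Z :=
    fun hs s1 s2 hx h => by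
      obtain ⟨z, hz, y, hy, rfl⟩ := key' hs s1 s2 (PS hx) h
      rwa [PT ((mul_mem_cancel_left (ZP hz)).1 hx) hy, mul_one]
  obtain ⟨x₀, hx₀, x₀Z⟩ : ∃ x ∈ P, x ∉ c.Z := by
    have := center_lt_ucn2 c.two.isNilpotent fun hab => by
      have h3 := card_le_of_le' (A := c.S) (B := c.Z ⊔ c.T) fun x hx =>
        (mem_sup_of_norm c.T_norm).2 (key' hu u1 u2 hx (setLike_mul_comm hx hu.1))
      rw [c.card_ZT] at h3
      exact lt.not_ge (h3.trans (by gcongr; nlinarith))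
    obtain ⟨x, hx, h⟩ := SetLike.exists_of_lt this
    exact ⟨x, hx, fun e => h ⟨e.1, e.2.2⟩⟩
  have el : ∀ {y}, y ∈ c.T → y * y = 1 := fun {y} hy => by
    by_contra y1
    obtain ⟨n, v1, v2⟩ := exists_inv_pow hT (mul_mem hy hy) y1
    refine x₀Z (PZ (pow_mem (mul_mem hy hy) n) v1 v2 hx₀ (Commute.pow_right ?_ n))
    have h1 := cP hx₀ hy.1
    rw [commute_iff_eq, ← mul_inv_eq_iff_eq_mul, ← conj_mul, ← inv_mul_cancel_right (x₀ * y * x₀⁻¹) y]
    generalize x₀ * y * x₀⁻¹ * y⁻¹ = d at h1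
    rw [mul_assoc, ← mul_assoc y, h1.2.2 y hy.1, ← mul_assoc, ← mul_assoc, h1.2.1, one_mul]
  have ne : ∀ {s x}, s ∈ c.T → s ≠ 1 → x ∈ P → x ∉ c.Z → x * s * x⁻¹ * s⁻¹ ≠ 1 :=
    fun hs s1 hx h e => h (PZ hs s1 (el hs) hx (mul_inv_eq_iff_eq_mul.1 (mul_inv_eq_one.1 e)))
  have cK : ∀ {s k x : G}, Commute s k →
      k * (x * s * x⁻¹ * s⁻¹) * k⁻¹ = k * x * k⁻¹ * s * (k * x * k⁻¹)⁻¹ * s⁻¹ := fun {s k x} h => by
    calc _ = k * x * k⁻¹ * (k * s * k⁻¹) * (k * x * k⁻¹)⁻¹ * (k * s * k⁻¹)⁻¹ := by group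
      _ = _ := by rw [h.symm.mul_inv_cancel]
  have onto : ∀ {s z}, s ∈ c.T → s ≠ 1 → z ∈ c.Z → ∃ x ∈ P, x * s * x⁻¹ = z * s :=
    fun {s z} hs s1 hz => by
      by_cases z1 : z = 1
      · exact ⟨1, one_mem _, by simp [z1]⟩
      obtain ⟨k, hk, h1, e⟩ := c.exists_K' (cP hx₀ hs.1) (ne hs s1 hx₀ x₀Z) hz z1
      exact ⟨_, nP hk hx₀, by rw [← e, cK (h1 s hs (el hs)), inv_mul_cancel_right]⟩
  have inv : ∀ {y x x'}, y ∈ c.T → x ∈ P → x ∉ c.Z → x' ∈ P → x' ∉ c.Z → x * y * (x * y) = 1 →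
      x' * y * (x' * y) = 1 := fun {y x x'} hy hx h hx' h' e => by
    obtain ⟨k, hk, h1, e'⟩ := c.exists_K' (cP hx hu.1) (ne hu u1 hx h) (cP hx' hu.1) (ne hu u1 hx' h')
    rw [cK (h1 u hu u2), mul_left_inj] at e'
    have h2 := PZ hu u1 u2 (mul_mem (inv_mem (nP hk hx)) hx') (by
      calc _ = (k * x * k⁻¹)⁻¹ * (x' * u * x'⁻¹) * x' := by group
        _ = _ := by rw [← e']; group)
    have h3 := conj_sq e k
    rw [← conj_mul, (h1 y hy (el hy)).symm.mul_inv_cancel] at h3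
    have h4 := PS (nP hk hx)
    rw [← mul_inv_cancel_left (k * x * k⁻¹) x']
    generalize k * x * k⁻¹ = v at h2 h3 h4
    generalize v⁻¹ * x' = z at h2
    rw [h2.2.2 v h4, mul_assoc z, mul_assoc z, ← mul_assoc _ z, h2.2.2 _ (mul_mem h4 hy.1), mul_assoc,
      h3, mul_one, h2.2.1]
  have TP : c.T ≤ N[P] := fun y hy => mem_norm_of_conj fun _ => nP (c.fixS y hy.1)
  obtain ⟨r, ⟨hr, hn⟩, rn⟩ := SetLike.exists_of_lt (lt_inf_norm_of_nil (A := P ⊔ c.T)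
    c.two.isNilpotent ((sup_le PS inf_le_left).lt_of_ne fun e => by
      have h1 := card_class P u
      have h2 := card_class_le (M := P) (A := c.Z) (x := u) fun g hg => cP hg hu.1
      have h3 := card_le_of_le' (A := P ⊓ C₁[u]) (B := c.Z) fun x hx =>
        PZ hu u1 u2 hx.1 (mem_cent1_iff.1 hx.2)
      have h4 := Nat.le_of_dvd (Nat.mul_pos Nat.card_pos hT0) (card_sup_dvd TP)
      rw [show P ⊔ c.T = c.S from e, ← h1] at h4
      exact lt.not_ge (h4.trans (by gcongr))))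
  have h1 : ∀ {s}, s ∈ c.T → s ≠ 1 → ∃ x ∈ P, ∃ y ∈ c.T, x * y = r * s * r⁻¹ ∧ y ≠ 1 ∧
      x₀ * y * (x₀ * y) = 1 := fun {s} hs s1 => by
    obtain ⟨x, hx, y, hy, e⟩ := (mem_sup_of_norm TP).1 (conj_mem_of_norm hn (mem_sup_right hs))
    have y1 : y ≠ 1 := fun e' => s1 (PT (by
      rw [e', mul_one] at e
      simpa [mul_assoc, e] using nP (c.fixS _ (inv_mem hr)) hx) hs)
    refine ⟨x, hx, y, hy, e, y1, inv hy hx (fun hZ => rn ?_) hx₀ x₀Z (e ▸ conj_sq (el hs) r)⟩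
    obtain ⟨x', hx', e'⟩ := onto hy y1 hZ
    obtain ⟨z, hz, w, hw, e''⟩ := key hs s1 (el hs) (mul_mem (inv_mem hr) (PS hx')) (by
      rwa [show (r⁻¹ * x')⁻¹ * s * (r⁻¹ * x') = x'⁻¹ * (r * s * r⁻¹) * x' by group, ← e, ← e',
        show x'⁻¹ * (x' * y * x'⁻¹) * x' = y by group])
    rw [show r = x' * (z * w)⁻¹ by rw [e'']; group]
    exact mul_mem (mem_sup_left hx') (inv_mem (mul_mem (mem_sup_left (ZP hz)) (mem_sup_right hw)))
  obtain ⟨x, hx, y, hy, e, -, h2⟩ := h1 hs s1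
  obtain ⟨x', hx', y', hy', e', -, h3⟩ := h1 hs' s1'
  obtain rfl : y = y' := by
    by_contra h
    refine x₀Z (PZ (mul_mem hy hy') (fun e => h ((eq_inv_of_mul_eq_one_left e).trans
      (inv_eq_of_sq (el hy')))) (el (mul_mem hy hy')) hx₀ ?_)
    have a : ∀ {y}, y ∈ c.T → x₀ * y * (x₀ * y) = 1 → x₀ * y = y * x₀⁻¹ := fun hy h => by
      rw [← inv_eq_of_sq h, mul_inv_rev, inv_eq_of_sq (el hy)]
    rw [← mul_assoc, a hy h2, mul_assoc, mul_assoc, mul_right_inj, inv_mul_eq_iff_eq_mul, ← mul_assoc,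
      a hy' h3, inv_mul_cancel_right]
  refine (eq_inv_of_mul_eq_one_left (PT ?_ (mul_mem hs hs'))).trans (inv_eq_of_sq (el hs'))
  have := nP (c.fixS _ (inv_mem hr)) (mul_mem hx (nP (c.fixS y hy.1) hx'))
  rwa [inv_eq_of_sq (el hy), show x * (y * x' * y) = x * y * (x' * y) by group, e, e', conj_mul,
    show r⁻¹ * (r * (s * s') * r⁻¹) * r⁻¹⁻¹ = s * s' by group] at this

theorem sq_T {y : G} (hy : y ∈ c.T) : y * y = 1 := by
  by_contra h
  have y1 : y ≠ 1 := fun e => h (by simp [e])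
  exact y1 (mul_eq_left.1 (c.T_eq hq (mul_mem hy hy) h hy y1))

theorem semireg {w w' x : G} (hw : c.Zc w) (wa : w • c.a = c.b) (hw' : c.Zc w') (wa' : w' • c.a = c.b)
    {N : Subgroup G} (hN : N ≤ c.S) (hTN : c.T ≤ N) (hn : ∀ g : G, g • c.a = c.a → g ∈ N[N])
    (hT : c.T ≠ ⊥) (hx : x ∈ c.S) (h : x⁻¹ * (w * w' * x * (w * w')⁻¹) ∈ N) : w = w' ∨ x ∈ N := by
  have : Fact (Nat.Prime 2) := ⟨Nat.prime_two⟩
  refine or_iff_not_imp_left.2 fun hne => ?_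
  have d1 : w * w' ≠ 1 := fun e => hne ((eq_inv_of_mul_eq_one_left e).trans (inv_eq_of_sq hw'.sq))
  have da := hw.mul_fix wa wa'
  have ho : Odd (orderOf (w * w')) := by
    obtain ⟨o, ho⟩ := hw.exists_fix
    obtain ⟨o', ho'⟩ := hw'.exists_fix
    refine hw.odd_mul hw' ho ho' ?_
    rintro rfl
    exact c.hab (by rw [← wa, (hw.mul hw' ho ho' d1).fix_unique da (by rw [mul_smul, ho', ho]), ho])
  obtain ⟨_, hj, hp⟩ := Ctx.exists_prime_V (X := zpowers (w * w')) (by simpa using d1)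
  obtain ⟨j, rfl⟩ := (Submonoid.mem_powers_iff _ _).1 (mem_powers_iff_mem_zpowers.2 hj)
  have ea : (w * w') ^ j • c.a = c.a := (stabilizer G c.a).pow_mem da j
  have key : ∀ n : ℕ, x⁻¹ * ((w * w') ^ n * x * ((w * w') ^ n)⁻¹) ∈ N := fun n => by
    induction n with
    | zero => simp
    | succ n ih =>
      convert mul_mem h (conj_mem_of_norm (hn _ da) ih) using 1
      rw [pow_succ']; generalize w * w' = d; group
  have h1 := card_modEq_conj hp (pow_orderOf_eq_one _) {y | x⁻¹ * y ∈ N} fun y hy => by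
    have := mul_mem (key j) (conj_mem_of_norm (hn _ ea) hy)
    rwa [show ∀ e : G, x⁻¹ * (e * x * e⁻¹) * (e * (x⁻¹ * y) * e⁻¹) = x⁻¹ * (e * y * e⁻¹) from
      fun e => by group] at this
  obtain ⟨y, hy, e⟩ : Nonempty {y // y ∈ {y | x⁻¹ * y ∈ N} ∧ (w * w') ^ j * y = y * (w * w') ^ j} := by
    by_contra e
    rw [not_nonempty_iff] at e
    obtain ⟨k, hk⟩ := (c.two.to_le hN).exists_card_eq
    rw [Nat.card_of_isEmpty (α := {y // y ∈ {y | x⁻¹ * y ∈ N} ∧ _}), Nat.card_eq_of_bijective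
      (fun y : {y | x⁻¹ * y ∈ N} => (⟨x⁻¹ * y, y.2⟩ : N)) ⟨fun _ _ e => Subtype.ext (mul_left_cancel
        (congrArg Subtype.val e)), fun z => ⟨⟨x * z, by simp⟩, by simp⟩⟩, hk] at h1
    exact hp.ne_one (eq_one_of_odd_dvd (ho.of_dvd_nat (orderOf_pow_dvd j))
      (Nat.modEq_zero_iff_dvd.1 h1))
  have hyS : y ∈ c.S := (mul_mem_cancel_left (inv_mem hx)).1 (hN hy)
  refine (mul_mem_cancel_right (hTN ?_)).1 hy |> inv_mem_iff.1
  obtain ⟨⟨s, hs⟩, s1⟩ := ne_bot_iff_exists_ne_one.1 hT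
  replace s1 : s ≠ 1 := fun e => s1 (Subtype.ext e)
  have s2 := c.sq_T hq hs
  have TA : c.T ≤ c.S ⊓ C₁[(w * w') ^ j] := fun v hv => ⟨hv.1, mem_cent1_iff.2
    (((hw.comm_T wa hv (c.sq_T hq hv)).mul_right (hw'.comm_T wa' hv (c.sq_T hq hv))).pow_right j).eq⟩
  by_contra hyT
  obtain ⟨v, hv, vT⟩ := SetLike.exists_of_lt (lt_inf_norm_of_nil
    (c.two.to_le inf_le_left).isNilpotent (TA.lt_of_ne fun e' => hyT (e'.ge ⟨hyS, mem_cent1_iff.2 e.symm⟩)))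
  obtain ⟨z, hz, u, hu, rfl⟩ := (mem_sup_of_norm c.T_norm).1
    ((c.key hq hs s1 s2).2 v hv.1.1 (conj_mem_of_norm' hv.2 hs))
  have h2 : z * (w * w') ^ j = (w * w') ^ j * z :=
    mem_cent1_iff.1 ((mul_mem_cancel_right (TA hu)).1 hv.1).2
  have h3 : (w * w') ^ j * w = w * ((w * w') ^ j)⁻¹ := by
    rw [← (dih_pow hw.sq hw'.sq j).1, ← mul_assoc, ← mul_assoc, hw.sq, one_mul]
  refine ne_one_of_orderOf_prime hp (mul_eq_right.1 ((Zc.of_mem hz fun e => vT (by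
    rwa [e, one_mul])).inj (c.fixS z hz.1) (hw.dih hw' j) (by
      rw [h3, mul_smul, inv_smul_eq_iff.2 ea.symm, wa]; exact c.hab.symm) hw (wa ▸ c.hab.symm) ?_))
  nth_rw 1 [h3]
  rw [mul_assoc, ← mul_assoc z, h2]; group

theorem T_eq_bot [IsSimpleGroup G] : c.T = ⊥ := by
  have : Fact (Nat.Prime 2) := ⟨Nat.prime_two⟩
  by_contra hT
  obtain ⟨⟨s, hs⟩, s1⟩ := ne_bot_iff_exists_ne_one.1 hT
  replace s1 : s ≠ 1 := fun e => s1 (Subtype.ext e)
  have s2 := c.sq_T hq hs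
  have hs' : ∀ y ∈ c.T, y = 1 ∨ y = s := fun y hy => or_iff_not_imp_left.2 fun y1 => c.T_eq hq hy y1 hs s1
  have cT : Nat.card c.T = 2 := (Nat.card_eq_two_iff' 1).2 ⟨⟨s, hs⟩, fun e => s1 (congrArg Subtype.val e),
    fun y hy => Subtype.ext ((hs' y y.2).resolve_left fun e => hy (Subtype.ext e))⟩
  have fB : ∀ g : G, g • c.a = c.a → ∃ x ∈ c.S, g * s * g⁻¹ = x * s * x⁻¹ := fun g hg => by
    obtain ⟨x, hx, y, hy, e⟩ := c.trans _ (c.pt_ne hg c.hab.symm)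
    have h1 : ((x * y)⁻¹ * g) • c.a = c.a := by rw [mul_smul, hg, inv_smul_eq_iff, c.fixU hx hy]
    have h2 : ((x * y)⁻¹ * g) • c.b = c.b := by rw [mul_smul, ← e, inv_smul_smul]
    have h3 := (hs' _ ⟨c.norm _ h1 s hs.1, show _ • c.b = c.b by
      rw [mul_smul, mul_smul _ s, inv_smul_eq_iff.2 h2.symm, hs.2, h2]⟩).resolve_left (conj_ne_one s1 _)
    refine ⟨x, hx, ?_⟩
    calc _ = x * (y * ((x * y)⁻¹ * g * s * ((x * y)⁻¹ * g)⁻¹)) * (x * y)⁻¹ := by group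
      _ = _ := by rw [h3, ← c.comm s hs.1 y hy]; group
  have fG : ∀ g : G, g⁻¹ * s * g ∈ c.S → ∃ x ∈ c.S, g⁻¹ * s * g = x * s * x⁻¹ := fun g hg => by
    by_cases h : g • c.a = c.a
    · simpa using fB g⁻¹ (inv_smul_eq_iff.2 h.symm)
    obtain ⟨w, hw, wa⟩ := c.exists_swap (Ne.symm h)
    have h1 := hw.comm_of_swap s2 (wa ▸ h) (c.fixS s hs.1) (by
      rw [wa, ← inv_smul_eq_iff, ← mul_smul, ← mul_smul, c.fixS _ hg])
    have := fB (g⁻¹ * w) (by rw [mul_smul, wa, inv_smul_smul])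
    rwa [mul_assoc g⁻¹, ← h1, show g⁻¹ * (s * w) * (g⁻¹ * w)⁻¹ = g⁻¹ * s * g by group] at this
  obtain ⟨W, -, ⟨WS, nW, sW⟩, hmax⟩ := exists_maximal_ge (A := ⊥) (P := fun W : Subgroup G =>
    W ≤ c.S ∧ (∀ g : G, g • c.a = c.a → g ∈ N[W]) ∧ s ∉ W)
    ⟨bot_le, fun g _ => mem_norm_of_conj (by simp), s1⟩
  have hn : (W.subgroupOf c.S).Normal := ⟨fun y hy x =>
    conj_mem_of_norm (A := W) (nW _ (c.fixS _ x.2)) hy⟩
  have cW : ∀ x ∈ c.S, x * s * x⁻¹ * s⁻¹ ∈ W := by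
    let M : Subgroup G :=
      { carrier := {y | y ∈ c.S ∧ ∀ x ∈ c.S, x * y * x⁻¹ * y⁻¹ ∈ W}
        one_mem' := ⟨one_mem _, by simp⟩
        mul_mem' := fun {u v} hu hv => ⟨mul_mem hu.1 hv.1, fun x hx => by
          convert mul_mem (hu.2 x hx) (conj_mem_of_norm (nW _ (c.fixS _ hu.1)) (hv.2 x hx)) using 1
          group⟩
        inv_mem' := fun {u} hu => ⟨inv_mem hu.1, fun x hx => by
          convert conj_mem_of_norm' (nW _ (c.fixS _ hu.1)) (inv_mem (hu.2 x hx)) using 1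
          group⟩ }
    by_contra h
    have : Nontrivial (c.S ⧸ W.subgroupOf c.S) :=
      ⟨(⟨s, hs.1⟩ : c.S), 1, fun e => sW ((QuotientGroup.eq_one_iff (N := W.subgroupOf c.S) _).1 e)⟩
    obtain ⟨⟨y, hy⟩, y1⟩ := ne_bot_iff_exists_ne_one.1 ((nontrivial_iff_ne_bot _).1
      (c.two.to_quotient (W.subgroupOf c.S)).center_nontrivial)
    obtain ⟨y, rfl⟩ := QuotientGroup.mk_surjective y
    refine y1 (Subtype.ext ((QuotientGroup.eq_one_iff _).2 ((hmax M ⟨fun _ h => h.1, fun g hg =>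
      mem_norm_of_conj fun y hy => ⟨c.norm g hg y hy.1, fun x hx => ?_⟩, fun e => h e.2⟩
      fun y hy => ⟨WS hy, fun x hx => mul_mem (conj_mem_of_norm (nW _ (c.fixS _ hx)) hy)
        (inv_mem hy)⟩).le ⟨y.2, fun x hx => ?_⟩)))
    · convert conj_mem_of_norm (nW g hg) (hy.2 _ (conj_mem_of_norm' (c.norm_S hg) hx)) using 1
      group
    · exact (QuotientGroup.eq_one_iff (N := W.subgroupOf c.S) (⟨x, hx⟩ * y * ⟨x, hx⟩⁻¹ * y⁻¹)).1 (by
        simp [mem_center_iff.1 hy])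
  have TW : c.T ≤ N[W] := fun y hy => nW y (c.fixS y hy.1)
  have mN : ∀ {x}, x ∈ W ⊔ c.T → x ∈ W ∨ x * s⁻¹ ∈ W := fun hx => by
    obtain ⟨u, hu, y, hy, rfl⟩ := (mem_sup_of_norm TW).1 hx
    exact (hs' y hy).imp (fun e => by rwa [e, mul_one]) fun e => by rwa [e, mul_inv_cancel_right]
  have NS : W ⊔ c.T ≤ c.S := sup_le WS inf_le_left
  have nN : ∀ g : G, g • c.a = c.a → g ∈ N[W ⊔ c.T] := fun g hg => mem_norm_of_conj fun x hx => by
    obtain ⟨y, hy, e⟩ := fB g hg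
    refine (mN hx).elim (fun h => mem_sup_left (conj_mem_of_norm (nW g hg) h)) fun h => ?_
    convert mul_mem (mem_sup_left (mul_mem (conj_mem_of_norm (nW g hg) h) (e ▸ cW y hy)))
      (mem_sup_right hs) using 1
    group
  have sqW : ∀ x ∈ c.S, x * x ∈ W := by
    by_cases hN : c.S ≤ W ⊔ c.T
    · refine fun x hx => (mN (hN hx)).elim (fun h => mul_mem h h) fun h => ?_
      convert mul_mem h (conj_mem_of_norm (TW hs) h) using 1
      rw [inv_eq_of_sq s2, mul_assoc s, mul_assoc x s s, s2, mul_one, mul_assoc, ← mul_assoc s, s2,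
        one_mul]
    obtain ⟨x, hx, xN, x2⟩ : ∃ x ∈ c.S, x ∉ W ⊔ c.T ∧ x * x ∈ W ⊔ c.T := by
      by_contra! h
      refine hN fun x hx => ?_
      obtain ⟨k, hk⟩ := c.two ⟨x, hx⟩
      have : ∀ n : ℕ, x ^ 2 ^ n ∈ W ⊔ c.T → x ∈ W ⊔ c.T := fun n => by
        induction n with
        | zero => simp
        | succ n ih => exact fun e => ih (by_contra fun e' => h _ (pow_mem hx _) e' (by
            rwa [← pow_add, ← two_mul, ← pow_succ']))
      exact this k ((show x ^ 2 ^ k = 1 from congrArg Subtype.val hk) ▸ one_mem _)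
    obtain ⟨t, ht, ta⟩ := c.exists_swap c.hab
    obtain ⟨z₀, hz₀, z1⟩ := c.exists_Z
    choose w hw wa e using fun (z : c.Z) (h : z ≠ 1) =>
      c.exists_K ht ta hz₀ z1 z.2 fun e => h (Subtype.ext e)
    classical
    have ka := fun z h => ht.mul_fix ta (wa z h)
    let ψ : c.Z → c.S ⧸ (W ⊔ c.T).subgroupOf c.S := fun z => if h : z = 1 then ((1 : c.S) : _ ⧸ _) else
      ((⟨_, c.norm _ (ka z h) x hx⟩ : c.S) : _ ⧸ _)
    have n1 : ∀ z h, t * w z h * x * (t * w z h)⁻¹ ∉ W ⊔ c.T := fun z h e =>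
      xN (mem_of_conj_mem_of_norm (nN _ (ka z h)) e)
    have hψ : Function.Injective ψ := fun z z' h => by
      by_cases h1 : z = 1 <;> by_cases h2 : z' = 1 <;>
        simp only [ψ, h1, h2, dite_true, dite_false, QuotientGroup.eq, mem_subgroupOf] at h
      · rw [h1, h2]
      · exact (n1 z' h2 (by simpa using h)).elim
      · exact (n1 z h1 (by simpa using inv_mem h)).elim
      · refine Subtype.ext ?_
        rw [← e z h1, ← e z' h2, (c.semireg hq (hw z h1) (wa z h1) (hw z' h2) (wa z' h2) NS le_sup_right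
          nN hT hx ?_).resolve_right xN]
        convert conj_mem_of_norm' (nN _ (ka z h1)) h using 1
        nth_rw 1 2 [← inv_eq_of_sq (hw z h1).sq]
        simp only [coe_mul, coe_inv]
        group
    have h1 := card_class c.S s
    have h2 := card_le_of_le' (A := c.S ⊓ C₁[s]) (B := c.Z ⊔ c.T) fun x hx =>
      (c.key hq hs s1 s2).2 x hx.1 (by rwa [mul_assoc, ← mem_cent1_iff.1 hx.2, inv_mul_cancel_left])
    have h3 := card_class_le cW
    have h4 := Nat.card_le_card_of_injective ψ hψ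
    have h5 := card_inf_mul_relIndex (W ⊔ c.T) c.S
    have h6 := card_sup_of_inf_eq_bot TW ((eq_bot_iff_forall _).2 fun y hy =>
      (hs' y hy.2).resolve_right fun e => sW (e ▸ hy.1))
    rw [c.card_ZT] at h2
    change _ ≤ (W ⊔ c.T).relIndex c.S at h4
    rw [inf_eq_left.2 NS, h6, ← h1] at h5
    have hW0 : 0 < Nat.card W := Nat.card_pos
    rw [cT] at h2 h5
    have h7 : (W ⊔ c.T).relIndex c.S ≤ Nat.card c.Z := by nlinarith
    have h8 : Nat.card W ≤ Nat.card {y | ∃ g ∈ c.S, g * s * g⁻¹ = y} := by nlinarith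
    have h9 := (hψ.bijective_of_nat_card_le h7).2
    have h10 := (Function.Injective.bijective_of_nat_card_le (f := fun y : {y | ∃ g ∈ c.S,
      g * s * g⁻¹ = y} => (⟨y.1 * s⁻¹, let ⟨g, hg, e⟩ := y.2; e ▸ cW g hg⟩ : W))
      (fun _ _ e => Subtype.ext (mul_right_cancel (congrArg Subtype.val e))) h8).2
    intro y hy
    have h11 : y * y ∈ W ⊔ c.T := by
      obtain ⟨z, hz⟩ := h9 (⟨y, hy⟩ : c.S)
      by_cases h1 : z = 1 <;>
        simp only [ψ, h1, dite_true, dite_false, QuotientGroup.eq, mem_subgroupOf] at hz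
      · have : y ∈ W ⊔ c.T := by simpa using hz
        exact mul_mem this this
      · have a1 := conj_mem_of_norm (nN _ (ka z h1)) x2
        have a2 := nN _ (c.fixS _ (c.norm _ (ka z h1) x hx))
        simp only [coe_mul, coe_inv] at hz
        rw [← conj_mul] at a1
        generalize t * w z h1 * x * (t * w z h1)⁻¹ = v at hz a1 a2
        convert mul_mem a1 (mul_mem (conj_mem_of_norm' a2 hz) hz) using 1
        group
    refine (mN h11).resolve_right fun h => ?_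
    obtain ⟨⟨_, g, hg, rfl⟩, e⟩ := h10 ⟨_, h⟩
    replace e : g * s * g⁻¹ = y * y := mul_right_cancel (congrArg Subtype.val e)
    have e' : g⁻¹ * y * g * (g⁻¹ * y * g) = s := by
      calc _ = g⁻¹ * (y * y) * g := by group
        _ = _ := by rw [← e]; group
    obtain ⟨z, hz, u, hu, e''⟩ := (mem_sup_of_norm c.T_norm).1 ((c.key hq hs s1 s2).2 _
      (mul_mem (mul_mem (inv_mem hg) hy) hg) (by rw [← e']; convert hs using 1; rw [← e']; group))
    rw [← e'', mul_assoc, ← mul_assoc u, hz.2.2 u hu.1, ← mul_assoc, ← mul_assoc, hz.2.1, one_mul,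
      c.sq_T hq hu] at e'
    exact s1 e'.symm
  let _ : CommGroup (c.S ⧸ W.subgroupOf c.S) :=
    { (inferInstance : Group (c.S ⧸ W.subgroupOf c.S)) with
      mul_comm := by
        rintro ⟨a⟩ ⟨b⟩
        change ((a * b : c.S) : c.S ⧸ W.subgroupOf c.S) = ((b * a : c.S) : _ ⧸ _)
        rw [QuotientGroup.eq, mem_subgroupOf]
        simpa [mul_assoc] using comm_mem_of_sq sqW (inv_mem b.2) (inv_mem a.2) }
  obtain ⟨z, hz, z1⟩ := c.exists_Z
  obtain ⟨g, hg⟩ := c.to_b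
  have h := pow_index_eq_one ⟨g, z, fun e => c.hab
    (((Zc.of_mem hz z1).fix_of_comm (c.fixS z hz.1) e).symm.trans hg)⟩
    (QuotientGroup.mk' (W.subgroupOf c.S)) hs.1 Nat.prime_two (by rwa [_root_.sq]) fun g hg => by
      obtain ⟨x, hx, e⟩ := fG g hg
      rw [show (⟨_, hg⟩ : c.S) = ⟨x, hx⟩ * ⟨s, hs.1⟩ * ⟨x, hx⟩⁻¹ from Subtype.ext e, map_mul, map_mul,
        map_inv, mul_inv_cancel_comm]
  obtain ⟨k, hk⟩ := c.index
  rw [hk, pow_succ, pow_mul, _root_.sq, ← map_mul, show (⟨s, hs.1⟩ * ⟨s, hs.1⟩ : c.S) = 1 from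
    Subtype.ext s2, map_one, one_pow, one_mul] at h
  exact sW ((QuotientGroup.eq_one_iff (N := W.subgroupOf c.S) _).1 h)

end P0

end Cfsg.Agent.H2.Pf
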