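import Cfsg.Agent.H2.PfId

/-! Nilpotent root groups act regularly. -/

set_option autoImplicit false
set_option linter.unusedSectionVars false

namespace Cfsg.Agent.H2.Pf

open MulAction Subgroup H7 Hig

universe u

variable {G Ω : Type*} [Group G] [MulAction G Ω] [Finite G]

omit [Finite G] in
theorem card_modEq_set [Finite Ω] {x : G} {p : ℕ} (hp : p.Prime) (hx : x ^ p = 1) (S : Set Ω)
    (hS : ∀ y ∈ S, x • y ∈ S) : Nat.card S ≡ Nat.card {y // y ∈ S ∧ x • y = y} [MOD p] := by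
  have := Fact.mk hp
  have h := card_modEq_fix (fun y : S => (⟨x • y, hS y y.2⟩ : S)) (p := p) (n := 1) (fun y => by
    have : ∀ n : ℕ, ((fun y : S => (⟨x • y, hS y y.2⟩ : S))^[n] y).1 = x ^ n • y.1 := fun n => by
      induction n with
      | zero => simp
      | succ n ih => simp only [Function.iterate_succ_apply', ih, pow_succ', mul_smul]
    exact Subtype.ext (by rw [this, pow_one, hx, one_smul]))
  refine h.trans (by
    rw [Nat.card_congr ((Equiv.subtypeEquivRight fun y => ?_).trans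
      (Equiv.subtypeSubtypeEquivSubtypeInter _ fun y => x • y = y))]
    rw [Subtype.ext_iff])

namespace Pre
variable (c : Pre G Ω) (hn : Group.IsNilpotent c.Q)
include hn

theorem central {z : G} (hz : z ∈ c.Q) (z2 : z * z = 1) {x : G} (hx : x ∈ c.Q) : x * z = z * x := by
  by_cases z1 : z = 1
  · simp [z1]
  obtain ⟨w, hw, w1, w2, h⟩ := exists_central_inv hn hz z1 z2
  obtain ⟨k, hk, rfl⟩ := c.K_trans hw w1 w2 hz z1 z2
  calc _ = k * (k⁻¹ * x * k * w) * k⁻¹ := by group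
    _ = _ := by rw [h _ (c.conj_Q' hk.1 hx)]; group

theorem K_not_fix {k : G} (hk : c.IsK k) {o : Ω} (ht : c.t • o = o) (ho : k • o = o) : k = 1 := by
  obtain ⟨g, rfl⟩ := c.exists_to o
  have key : ∀ x : G, x • g • c.a = g • c.a → (g⁻¹ * x * g⁻¹⁻¹) • c.a = c.a := fun x e => by
    rw [inv_inv, mul_smul, mul_smul, e, inv_smul_smul]
  have h1 := c.inv_mem_Q (conj_sq c.t_sq g⁻¹) (key _ ht)
  have h2 : g⁻¹ * (k * k) * g⁻¹⁻¹ ∈ c.Q := by
    convert mul_mem (c.norm _ (key _ ho) _ h1) h1 using 1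
    rw [show k * k = k * (c.t * k⁻¹ * c.t) by rw [hk.inv.2, inv_inv]]
    group
  obtain ⟨m, hm⟩ := exists_sqrt (c.D_odd hk.1)
  have h3 := c.central hn h1 (conj_sq c.t_sq g⁻¹) (pow_mem h2 m)
  rw [conj_pow, conj_mul, conj_mul, mul_left_inj, mul_right_inj, ← _root_.sq, ← pow_mul, two_mul,
    pow_add, hm, hk.mul_t, mul_right_inj] at h3
  exact eq_one_of_odd (c.D_odd hk.1) (mul_eq_one_iff_eq_inv.2 h3.symm)

theorem odd_cent {k : G} (hk : c.IsK k) (k1 : k ≠ 1) : Odd (Nat.card C₁[k]) := by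
  refine odd_card_of_forall fun x hx => ?_
  by_contra h
  obtain ⟨n, u1, u2⟩ := exists_half h
  have hu : Commute (x ^ n) k := mem_cent1_iff.1 (pow_mem hx n)
  obtain ⟨o, ho⟩ := c.exists_fix u2
  have hko := c.fix_of_comm u1 u2 ho hu.symm
  obtain ⟨g, rfl⟩ := c.exists_to o
  have key : ∀ x : G, (g⁻¹ * x * g⁻¹⁻¹) • c.a = c.a ↔ x • g • c.a = g • c.a := fun x => by
    rw [inv_inv, mul_smul, mul_smul, inv_smul_eq_iff]
  have e1 : k * c.t * k⁻¹ = c.t * (k * k)⁻¹ := by rw [hk.mul_t]; group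
  have e2 : k * c.t * k⁻¹ = k * k * c.t := by rw [mul_assoc, ← hk.mul_t, mul_assoc]
  have h1 : c.t • g • c.a ≠ g • c.a := fun e => k1 (c.K_not_fix hn hk e hko)
  have h2 := c.conj_inv_inj (c.inv_mem_Q (conj_sq u2 g⁻¹) ((key _).2 ho)) (conj_ne_one u1 _)
    (conj_sq u2 g⁻¹) (conj_sq c.t_sq g⁻¹) (mt (key _).1 h1) (conj_sq (conj_sq c.t_sq k) g⁻¹)
    (mt (key _).1 fun e => h1 (by
      rwa [mul_smul, mul_smul, inv_smul_eq_iff.2 hko.symm, ← eq_inv_smul_iff,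
        inv_smul_eq_iff.2 hko.symm] at e)) (by
      rw [conj_mul, conj_mul, conj_mul, conj_mul, mul_left_inj, mul_right_inj]
      nth_rw 1 [e1]
      rw [e2, mul_assoc _ (x ^ n) (_ * _), ← mul_assoc (x ^ n), (hu.mul_right hu).eq]
      group)
  rw [mul_left_inj, mul_right_inj, e2, right_eq_mul] at h2
  exact k1 (eq_one_of_odd (c.D_odd hk.1) h2)

theorem eq_one_of_comm {k y : G} (hk : c.IsK k) (hp : (orderOf y).Prime) (ha : y • c.a = c.a)
    (hy : ∀ o, y • o = o → o = c.a) (h : y * k = k * y) : k = 1 := by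
  by_contra k1
  have := c.finite_pts
  let O : Ω → Set Ω := fun p => {q | ∃ g ∈ C₁[k], g • p = q}
  have hO : ∀ p, ∀ g ∈ C₁[k], ∀ q ∈ O p, g • q ∈ O p := fun p g hg _ ⟨g', hg', e⟩ =>
    ⟨g * g', mul_mem hg hg', by rw [mul_smul, e]⟩
  have ht : ∀ g ∈ C₁[k], c.t * g * c.t ∈ C₁[k] := fun g hg => mem_cent1_iff.2 (by
    have : Commute g k := mem_cent1_iff.1 hg
    rw [mul_assoc, hk.t_mul, ← mul_assoc, mul_assoc c.t, this.inv_right.eq, ← mul_assoc, ← hk.mul_t]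
    group)
  have hO' : ∀ p, ∀ q ∈ O p, c.t • q ∈ O (c.t • p) := fun p _ ⟨g, hg, e⟩ =>
    ⟨_, ht g hg, by rw [mul_smul, mul_smul, c.t_t, e]⟩
  by_cases hb : c.b ∈ O c.a
  · have h1 := card_modEq_set (x := c.t) Nat.prime_two (by rw [_root_.sq, c.t_sq]) (O c.a) fun q hq => by
      obtain ⟨g, hg, e⟩ := hO' _ q hq
      exact e ▸ c.ta ▸ hO _ g hg _ hb
    have h2 : Odd (Nat.card (O c.a)) :=
      (c.odd_cent hn hk k1).of_dvd_nat (Dvd.intro _ (card_orbit _ c.a))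
    obtain ⟨o, ⟨g, hg, rfl⟩, ho⟩ : Nonempty {y // y ∈ O c.a ∧ c.t • y = y} := by
      by_contra e
      rw [not_nonempty_iff] at e
      rw [Nat.card_of_isEmpty (α := {y // y ∈ O c.a ∧ c.t • y = y})] at h1
      exact (Nat.not_even_iff_odd.2 h2) (even_iff_two_dvd.2 (Nat.modEq_zero_iff_dvd.1 h1))
    exact k1 (c.K_not_fix hn hk ho (by
      rw [← mul_smul, ← mem_cent1_iff.1 hg, mul_smul, (c.mem_D.1 hk.1).1]))
  have hy' : y ∈ C₁[k] := mem_cent1_iff.2 h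
  have h1 := card_modEq_set hp (pow_orderOf_eq_one y) (O c.a) (hO _ y hy')
  have h2 := card_modEq_set hp (pow_orderOf_eq_one y) (O c.b) (hO _ y hy')
  have : IsEmpty {q // q ∈ O c.b ∧ y • q = q} := ⟨fun ⟨q, ⟨g, hg, e⟩, hq⟩ =>
    hb ⟨g⁻¹, inv_mem hg, by rw [← hy q hq, ← e, inv_smul_smul]⟩⟩
  rw [Nat.card_of_isEmpty (α := {q // q ∈ O c.b ∧ y • q = q}), ← Nat.card_eq_of_bijective
    (fun q : O c.a => (⟨c.t • q.1, c.ta ▸ hO' _ _ q.2⟩ : O c.b)) ⟨fun q q' e => Subtype.ext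
      ((smul_left_cancel_iff c.t).1 (congrArg Subtype.val e)), fun q =>
      ⟨⟨c.t • q.1, c.tb ▸ hO' _ _ q.2⟩, Subtype.ext (c.t_t _)⟩⟩] at h2
  rw [show Nat.card {q // q ∈ O c.a ∧ y • q = q} = 1 from Nat.card_eq_one_iff_exists.2
    ⟨⟨c.a, ⟨1, one_mem _, one_smul _ _⟩, ha⟩, fun q => Subtype.ext (hy _ q.2.2)⟩] at h1
  exact hp.ne_one (Nat.dvd_one.1 (Nat.modEq_zero_iff_dvd.1 (h1.symm.trans h2)))

omit hn in
theorem fix_central (hf : ∀ g : G, (∀ p : Ω, g • p = p) → g = 1) {y : G} (hy : y ∈ c.Q)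
    (h : ∀ x ∈ c.Q, x * y = y * x) {o : Ω} (ho : o ≠ c.a) (e : y • o = o) : y = 1 := hf y fun p => by
  by_cases hp : p = c.a
  · exact hp ▸ c.fix y hy
  obtain ⟨x, hx, rfl⟩ := c.trans o ho
  obtain ⟨x', hx', rfl⟩ := c.trans p hp
  rw [← inv_smul_smul x c.b, ← mul_smul x', ← mul_smul y, ← h _ (mul_mem hx' (inv_mem hx)),
    mul_smul, e]

theorem free_of (hf : ∀ g : G, (∀ p : Ω, g • p = p) → g = 1)
    (hY : ∀ x ∈ c.Q, c.t * x * c.t ∈ c.Q → x = 1) {x : G} (hx : x ∈ c.Q) (hb : x • c.b = c.b) :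
    x = 1 := by
  by_contra x1
  obtain ⟨e, he, hp⟩ := Ctx.exists_prime_V (X := c.Q ⊓ c.D) (ne_bot_of_mem ⟨hx, c.fix x hx, hb⟩ x1)
  have he' := c.D_t he.2
  have hc : Commute e (c.t * e * c.t) := by
    rw [commute_iff_eq, ← mul_inv_eq_one, mul_inv_rev, ← mul_assoc, mul_assoc, mul_assoc]
    refine hY _ (mul_mem he.1 (mul_assoc _ e⁻¹ _ ▸ c.conj_Q he' (inv_mem he.1))) ?_
    convert mul_mem (c.conj_Q he' he.1) (inv_mem he.1) using 1
    simp only [mul_inv_rev, c.t_inv, mul_assoc, c.t_t_mul, c.t_sq, mul_one]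
  obtain ⟨w, hw, wp, hw'⟩ := exists_central_prime hn hp (orderOf_dvd_card_of_mem he.1)
  let A : Subgroup G :=
    { carrier := {y | y ∈ c.Q ∧ y ^ orderOf e = 1 ∧ ∀ x ∈ c.Q, x * y = y * x}
      one_mem' := ⟨one_mem _, one_pow _, by simp⟩
      mul_mem' := fun {a b} ha hb => ⟨mul_mem ha.1 hb.1, by
        rw [Commute.mul_pow (hb.2.2 a ha.1), ha.2.1, hb.2.1, mul_one], fun x hx => by
        rw [← mul_assoc, ha.2.2 x hx, mul_assoc, hb.2.2 x hx, mul_assoc]⟩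
      inv_mem' := fun {a} ha => ⟨inv_mem ha.1, by rw [inv_pow, ha.2.1, inv_one], fun x hx =>
        (Commute.inv_right (ha.2.2 x hx)).eq⟩ }
  have h1 := card_modEq_conj (x := c.t * e * c.t) hp (by
    nth_rw 2 [← c.t_inv]; rw [conj_pow, pow_orderOf_eq_one, mul_one, mul_inv_cancel]) A
    fun y hy => ⟨c.conj_Q he' hy.1, by rw [conj_pow, hy.2.1, mul_one, mul_inv_cancel], fun x hx => by
      generalize c.t * e * c.t = d at he'
      calc _ = d * (d⁻¹ * x * d * y) * d⁻¹ := by group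
        _ = _ := by rw [hy.2.2 _ (c.conj_Q' he' hx)]; group⟩
  have h2 : orderOf e ∣ Nat.card A := wp ▸ orderOf_dvd_card_of_mem (A := A)
    ⟨hw, by rw [← wp, pow_orderOf_eq_one], hw'⟩
  obtain ⟨y, hy, hy', y1⟩ : ∃ y ∈ A, c.t * e * c.t * y = y * (c.t * e * c.t) ∧ y ≠ 1 := by
    by_contra! h3
    rw [show Nat.card {y // y ∈ (A : Set G) ∧ _} = 1 from Nat.card_eq_one_iff_exists.2
      ⟨⟨1, one_mem A, by simp⟩, fun y => Subtype.ext (h3 _ y.2.1 y.2.2)⟩] at h1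
    exact hp.ne_one (Nat.dvd_one.1 (Nat.modEq_zero_iff_dvd.1 (h1.symm.trans
      (Nat.modEq_zero_iff_dvd.2 h2))))
  have := Fact.mk hp
  have h3 := c.eq_one_of_comm hn (k := e * (c.t * e * c.t)⁻¹) (y := y) (by
    simpa [c.t_inv, mul_assoc] using c.isK_comm he.2) ((orderOf_eq_prime hy.2.1 y1).symm ▸ hp)
    (c.fix y hy.1) (fun o ho => by_contra fun h => y1 (c.fix_central hf hy.1 hy.2.2 h ho))
    ((Commute.symm (hy.2.2 e he.1)).mul_right (Commute.symm hy').inv_right).eq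
  exact ne_one_of_orderOf_prime hp (hY e he.1 (mul_inv_eq_one.1 h3 ▸ he.1))

end Pre

theorem Pre.odd_fix (n : ℕ) : ∀ {G Ω : Type u} [Group G] [MulAction G Ω] [Finite G] (c : Pre G Ω),
    Nat.card G = n → Group.IsNilpotent c.Q →
    (∃ z ∈ c.Q, ∃ z' ∈ c.Q, z * z = 1 ∧ z ≠ 1 ∧ z' * z' = 1 ∧ z' ≠ 1 ∧ z ≠ z') →
    ∀ y ∈ c.Q, Odd (orderOf y) → (∀ x ∈ c.Q, x * y = y * x) → y • c.b = c.b := by
  induction n using Nat.strong_induction_on with
  | _ n ih =>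
  rintro G Ω _ _ _ c rfl hn ⟨z, hz, z', hz', z2, z1, z2', z1', hzz⟩ y hy ho hc
  by_cases hf : ∀ g : G, (∀ p : Ω, g • p = p) → g = 1
  swap
  · let φ := (toPermHom G Ω).rangeRestrict
    have hφ : ∀ z ∈ c.Q, z * z = 1 → φ z = 1 → z = 1 := fun z hz z2 e => by_contra fun z1 =>
      c.hab (c.fix_unique z1 z2 (c.fix z hz) (congrArg (· • c.b) e))
    refine ih _ ?_ c.img rfl (Group.nilpotent_of_surjective _ (φ.subgroupMap_surjective c.Q))
      ⟨φ z, ⟨z, hz, rfl⟩, φ z', ⟨z', hz', rfl⟩, by rw [← map_mul, z2, map_one], mt (hφ z hz z2) z1,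
        by rw [← map_mul, z2', map_one], mt (hφ z' hz' z2') z1', fun e => hzz ?_⟩ (φ y) ⟨y, hy, rfl⟩
        (ho.of_dvd_nat (orderOf_map_dvd _ y)) ?_
    · push Not at hf
      obtain ⟨g, hg, g1⟩ := hf
      rw [← index_ker, ← (toPermHom G Ω).ker.card_mul_index]
      exact lt_mul_of_one_lt_left (Nat.pos_of_ne_zero FiniteIndex.index_ne_zero)
        ((one_lt_card_iff_ne_bot _).2 fun e => g1 (mem_bot.1 (e ▸ Equiv.ext hg)))
    · refine (eq_inv_of_mul_eq_one_left (hφ _ (mul_mem hz hz') ?_ ?_)).trans (inv_eq_of_sq z2')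
      · rw [mul_assoc, ← mul_assoc z', c.central hn hz z2 hz', mul_assoc, z2', mul_one, z2]
      · rw [map_mul, e, ← map_mul, z2', map_one]
    · rintro _ ⟨x, hx, rfl⟩
      rw [← map_mul, ← map_mul, hc x hx]
  by_cases hY : ∀ x ∈ c.Q, c.t * x * c.t ∈ c.Q → x = 1
  · let c' : Ctx G Ω := ⟨c, fun x => c.free_of hn hf hY⟩
    have hb : c'.Big := by
      by_cases e : z = c'.s
      exacts [⟨z', hz', z2', z1', e ▸ hzz.symm⟩, ⟨z, hz, z2, z1, e⟩]
    obtain ⟨k, hk⟩ := c'.two_group hb ⟨y, hy⟩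
    rw [orderOf_eq_one_iff.1 (Nat.eq_one_of_dvd_coprimes (ho.coprime_two_right.pow_right k) dvd_rfl
      (orderOf_dvd_of_pow_eq_one (congrArg Subtype.val hk))), one_smul]
  let Y := c.Q ⊓ c.Q.comap (MulAut.conj c.t).toMonoidHom
  have mY : ∀ {x}, x ∈ Y ↔ x ∈ c.Q ∧ c.t * x * c.t ∈ c.Q := fun {x} => by
    rw [mem_inf, mem_comap]; simp [c.t_inv]
  have hC : ∀ x, (∀ y ∈ c.Q, y * x = x * y) → x ∈ N[Y] := fun x h => mem_norm_of_conj fun y hy => by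
    rwa [← h y hy.1, mul_inv_cancel_right]
  let Λ : SubMulAction N[Y] Ω :=
    { carrier := {o | ∃ g : G, g • c.a = o ∧ ∀ y ∈ Y, g⁻¹ * y * g ∈ c.Q}
      smul_mem' := fun m _ ⟨g, e, h⟩ => ⟨m * g, by rw [mul_smul, e]; rfl, fun y hy => by
        simpa [mul_assoc] using h _ (conj_mem_of_norm' m.2 hy)⟩ }
  let c' := c.restrict N[Y] Λ ⟨1, one_smul _ _, fun y hy => by simpa using hy.1⟩
    ⟨c.t, c.ta, fun y hy => c.t_inv.symm ▸ (mY.1 hy).2⟩ (mem_norm_of_conj fun y hy => mY.2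
      ⟨c.t_inv.symm ▸ (mY.1 hy).2, by simpa [c.t_inv, mul_assoc, c.t_t_mul, c.t_sq] using hy.1⟩)
    (fun o ⟨g, e, h⟩ ho => by
      obtain ⟨x, hx, rfl⟩ := c.trans o ho
      refine ⟨x, hx, inv_mem_iff.1 (mem_norm_of_conj fun y hy => mY.2
        ⟨c.norm _ (c.fix _ (inv_mem hx)) _ hy.1, ?_⟩), rfl⟩
      simpa [c.t_inv, mul_assoc] using c.norm (c.t * x⁻¹ * g) (by
        rw [mul_smul, mul_smul, e, inv_smul_smul, c.tb]) _ (h y hy))
    ⟨z, hz, hC z fun y => c.central hn hz z2, z1, z2⟩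
  refine congrArg Subtype.val (ih _ (card_top (G := G) ▸ card_lt_of_lt (Ne.lt_top fun e => hY ?_)) c'
    rfl (Subgroup.isNilpotent_of_ker_le_center (N[Y].subtype.subgroupComap c.Q) fun x hx => by
      have := congrArg Subtype.val (MonoidHom.mem_ker.1 hx)
      exact (show x = 1 from Subtype.ext (Subtype.ext this)) ▸ one_mem _)
    ⟨⟨z, hC z fun y => c.central hn hz z2⟩, hz, ⟨z', hC z' fun y => c.central hn hz' z2'⟩, hz',
      Subtype.ext z2, fun e => z1 (congrArg Subtype.val e), Subtype.ext z2',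
      fun e => z1' (congrArg Subtype.val e), fun e => hzz (congrArg Subtype.val e)⟩ ⟨y, hC y hc⟩ hy
    (by rwa [← orderOf_coe]) fun x hx => Subtype.ext (hc x hx))
  have := normalizer_eq_top_iff.1 e
  exact fun x hx h => mem_bot.1 ((c.eq_one_of_normal hf (M := Y) fun x hx => c.fix x hx.1).le
    (mY.2 ⟨hx, h⟩))

theorem Pre.exists_ctx {G Ω : Type u} [Group G] [MulAction G Ω] [Finite G] [IsSimpleGroup G]
    (c : Pre G Ω) (hn : Group.IsNilpotent c.Q)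
    (h : ∃ z ∈ c.Q, ∃ z' ∈ c.Q, z * z = 1 ∧ z ≠ 1 ∧ z' * z' = 1 ∧ z' ≠ 1 ∧ z ≠ z') :
    ∃ c' : Ctx G Ω, c'.Big := by
  let c' : Ctx G Ω := ⟨c, fun x hx hb => by
    by_contra x1
    obtain ⟨e, he, hp⟩ := Ctx.exists_prime_V (X := c.Q ⊓ c.D) (ne_bot_of_mem ⟨hx, c.fix x hx, hb⟩ x1)
    obtain ⟨w, hw, wp, hw'⟩ := exists_central_prime hn hp (orderOf_dvd_card_of_mem he.1)
    exact ne_one_of_orderOf_prime (wp ▸ hp) (c.fix_central c.faithful hw hw' c.hab.symm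
      (Pre.odd_fix _ c rfl hn h w hw (wp ▸ c.D_odd he.2) hw'))⟩
  obtain ⟨z, hz, z', hz', z2, z1, z2', z1', hzz⟩ := h
  refine ⟨c', ?_⟩
  by_cases e : z = c'.s
  exacts [⟨z', hz', z2', z1', e ▸ hzz.symm⟩, ⟨z, hz, z2, z1, e⟩]

end Cfsg.Agent.H2.Pf
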